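import Mathlib

/-! Sylow 2-subgroups of type `G₂(q)`, `q` odd: `(Z/2^n × Z/2^n) ⋊ (Z/2 × Z/2)`. -/

set_option autoImplicit false

namespace Cfsg.Agent.GT

/-- generators and relations -/
structure Rl {G : Type*} [Group G] (n : ℕ) (a b u v : G) : Prop where
  hn : 2 ≤ n
  ha : a ^ 2 ^ n = 1
  hb : b ^ 2 ^ n = 1
  ab : a * b = b * a
  uu : u * u = 1
  vv : v * v = 1
  uv : u * v = v * u
  ua : u * a * u⁻¹ = a⁻¹
  ub : u * b * u⁻¹ = b⁻¹
  va : v * a * v⁻¹ = b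
  ind : ∀ (i j : ℤ) (w : G), w = 1 ∨ w = u ∨ w = v ∨ w = u * v → a ^ i * b ^ j = w →
    (2 ^ n : ℤ) ∣ i ∧ (2 ^ n : ℤ) ∣ j
  u1 : u ≠ 1
  v1 : v ≠ 1
  uv1 : u * v ≠ 1

/-- `S` is the group generated by `a b u v` -/
def Gn {G : Type*} [Group G] (S : Subgroup G) (a b u v : G) : Prop :=
  ∀ g : G, g ∈ S ↔ ∃ (i j : ℤ) (w : G), (w = 1 ∨ w = u ∨ w = v ∨ w = u * v) ∧
    g = a ^ i * b ^ j * w

/-- pairs of invertible matrices with equal determinant -/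
def MM (F : Type*) [Field F] : Subgroup (GL (Fin 2) F × GL (Fin 2) F) :=
  (Matrix.GeneralLinearGroup.det.comp (MonoidHom.fst _ _)).eqLocus
    (Matrix.GeneralLinearGroup.det.comp (MonoidHom.snd _ _))

/-- the kernel of `Θ` consists exactly of the pairs `(c, c)` of equal scalars -/
def Kr {F : Type*} [Field F] {H : Type*} [Group H] (Θ : MM F →* H) : Prop :=
  ∀ p : MM F, Θ p = 1 ↔ ∃ c : F, (p.1.1 : Matrix (Fin 2) (Fin 2) F) = c • 1 ∧
    (p.1.2 : Matrix (Fin 2) (Fin 2) F) = c • 1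

end Cfsg.Agent.GT
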