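import Cfsg.Agent.GT.A

/-! Computations in a 2-group of type `G₂(q)`. -/

set_option autoImplicit false

namespace Cfsg.Agent.GT
open Subgroup

variable {G : Type*} [Group G] {n : ℕ} {a b u v : G}

/-- normal form in the abelian part -/
def ee (a b : G) (i j : ℤ) : G := a ^ i * b ^ j

/-- quarter of the exponent -/
def dd (n : ℕ) : ℤ := 2 ^ (n - 2)

theorem dd_pos (n : ℕ) : 0 < dd n := by unfold dd; positivity

namespace Rl

theorem m4 (h : Rl n a b u v) : (2 ^ n : ℤ) = 4 * dd n := by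
  obtain ⟨k, rfl⟩ := Nat.exists_eq_add_of_le h.hn
  simp [dd, pow_add]

theorem em (h : Rl n a b u v) (i j k l : ℤ) : ee a b i j * ee a b k l = ee a b (i + k) (j + l) := by
  have c : Commute a b := h.ab
  unfold ee
  rw [zpow_add, zpow_add, mul_assoc, ← mul_assoc (b ^ j), ← (c.zpow_zpow k j).eq]
  simp only [mul_assoc]

theorem e0 : ee a b 0 0 = 1 := by simp [ee]

theorem ue (h : Rl n a b u v) (i j : ℤ) : u * ee a b i j = ee a b (-i) (-j) * u := by
  have h1 : u * a ^ i * u⁻¹ = a ^ (-i) := by rw [← conj_zpow, h.ua, inv_zpow']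
  have h2 : u * b ^ j * u⁻¹ = b ^ (-j) := by rw [← conj_zpow, h.ub, inv_zpow']
  unfold ee
  rw [← h1, ← h2]; group

theorem vb (h : Rl n a b u v) : v * b * v⁻¹ = a := by
  rw [← h.va]
  calc v * (v * a * v⁻¹) * v⁻¹ = (v * v) * a * (v * v)⁻¹ := by group
    _ = a := by rw [h.vv]; simp

theorem ve (h : Rl n a b u v) (i j : ℤ) : v * ee a b i j = ee a b j i * v := by
  have c : Commute a b := h.ab
  have h1 : v * a ^ i * v⁻¹ = b ^ i := by rw [← conj_zpow, h.va]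
  have h2 : v * b ^ j * v⁻¹ = a ^ j := by rw [← conj_zpow, h.vb]
  unfold ee
  rw [(c.zpow_zpow j i).eq, ← h1, ← h2]; group

theorem uve (h : Rl n a b u v) (i j : ℤ) : u * v * ee a b i j = ee a b (-j) (-i) * (u * v) := by
  rw [mul_assoc, h.ve, ← mul_assoc, h.ue, mul_assoc]

theorem eq_of (h : Rl n a b u v) {i j k l : ℤ} (h1 : 4 * dd n ∣ i - k) (h2 : 4 * dd n ∣ j - l) :
    ee a b i j = ee a b k l := by
  rw [← h.m4] at h1 h2
  obtain ⟨c, hc⟩ := h1
  obtain ⟨c', hc'⟩ := h2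
  have ha : a ^ (2 ^ n : ℤ) = 1 := by exact_mod_cast h.ha
  have hb : b ^ (2 ^ n : ℤ) = 1 := by exact_mod_cast h.hb
  rw [show i = k + 2 ^ n * c by omega, show j = l + 2 ^ n * c' by omega]
  unfold ee
  rw [zpow_add, zpow_add, zpow_mul, zpow_mul, ha, hb]; simp

theorem nf1 (h : Rl n a b u v) {i j : ℤ} {w : G} (hw : w = 1 ∨ w = u ∨ w = v ∨ w = u * v)
    (e : ee a b i j = w) : w = 1 ∧ 4 * dd n ∣ i ∧ 4 * dd n ∣ j := by
  obtain ⟨h1, h2⟩ := h.ind i j w hw e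
  rw [h.m4] at h1 h2
  exact ⟨e.symm.trans ((h.eq_of (by simpa using h1) (by simpa using h2)).trans e0), h1, h2⟩

theorem nf (h : Rl n a b u v) {i j k l : ℤ} (e : ee a b i j = ee a b k l) :
    4 * dd n ∣ i - k ∧ 4 * dd n ∣ j - l :=
  (h.nf1 (Or.inl rfl) (by
    rw [sub_eq_add_neg, sub_eq_add_neg, ← h.em, e, h.em]; simp [e0])).2

theorem ne (h : Rl n a b u v) {i j k l : ℤ} {w : G} (hw : w = u ∨ w = v ∨ w = u * v) :
    ee a b i j ≠ ee a b k l * w := fun e => by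
  have h1 : ee a b (-k + i) (-l + j) = w := by
    rw [← h.em, e, ← mul_assoc, h.em]; simp [e0]
  have := (h.nf1 (Or.inr hw) h1).1
  rcases hw with rfl | rfl | rfl
  exacts [h.u1 this, h.v1 this, h.uv1 this]

theorem om (h : Rl n a b u v) {i j : ℤ} (h1 : 4 * dd n ∣ i - -i) (h2 : 4 * dd n ∣ j - -j) :
    ee a b i j = 1 ∨ ee a b i j = ee a b (2 * dd n) 0 ∨ ee a b i j = ee a b 0 (2 * dd n) ∨
      ee a b i j = ee a b (2 * dd n) (2 * dd n) := by
  have key : ∀ i : ℤ, 4 * dd n ∣ i - -i → 4 * dd n ∣ i - 0 ∨ 4 * dd n ∣ i - 2 * dd n := by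
    rintro i ⟨c, hc⟩
    rcases Int.even_or_odd' c with ⟨k, rfl | rfl⟩
    · exact Or.inl ⟨k, by linarith⟩
    · exact Or.inr ⟨k, by linarith⟩
  rcases key i h1 with p | p <;> rcases key j h2 with q | q
  · exact Or.inl ((h.eq_of p q).trans e0)
  · exact Or.inr (Or.inr (Or.inl (h.eq_of p q)))
  · exact Or.inr (Or.inl (h.eq_of p q))
  · exact Or.inr (Or.inr (Or.inr (h.eq_of p q)))

theorem om' (h : Rl n a b u v) {i j : ℤ} (e : ee a b i j * ee a b i j = 1) :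
    ee a b i j = 1 ∨ ee a b i j = ee a b (2 * dd n) 0 ∨ ee a b i j = ee a b 0 (2 * dd n) ∨
      ee a b i j = ee a b (2 * dd n) (2 * dd n) := by
  rw [h.em] at e
  obtain ⟨-, h1, h2⟩ := h.nf1 (Or.inl rfl) e
  exact h.om (by simpa using h1) (by simpa using h2)

theorem uvuv (h : Rl n a b u v) : u * v * (u * v) = 1 := by
  rw [mul_assoc, ← mul_assoc v, ← h.uv, mul_assoc, h.vv, mul_one, h.uu]

/-- squares lie in the abelian part -/
theorem sq (h : Rl n a b u v) {S : Subgroup G} (g : Gn S a b u v) {s : G} (hs : s ∈ S) :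
    ∃ i j, s * s = ee a b i j := by
  obtain ⟨i, j, w, hw, rfl⟩ := (g s).1 hs
  change ∃ k l, ee a b i j * w * (ee a b i j * w) = _
  rw [mul_assoc, ← mul_assoc w]
  rcases hw with rfl | rfl | rfl | rfl
  · exact ⟨_, _, by rw [one_mul, mul_one, h.em]⟩
  · exact ⟨_, _, by rw [h.ue, mul_assoc, h.uu, mul_one, h.em]⟩
  · exact ⟨_, _, by rw [h.ve, mul_assoc, h.vv, mul_one, h.em]⟩
  · exact ⟨_, _, by rw [h.uve, mul_assoc, h.uvuv, mul_one, h.em]⟩

theorem zc (h : Rl n a b u v) {S : Subgroup G} (g : Gn S a b u v) {s : G} (hs : s ∈ S) :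
    s * ee a b (2 * dd n) (2 * dd n) = ee a b (2 * dd n) (2 * dd n) * s := by
  obtain ⟨i, j, w, hw, rfl⟩ := (g s).1 hs
  have e : ee a b (-(2 * dd n)) (-(2 * dd n)) = ee a b (2 * dd n) (2 * dd n) :=
    h.eq_of ⟨-1, by ring⟩ ⟨-1, by ring⟩
  have : w * ee a b (2 * dd n) (2 * dd n) = ee a b (2 * dd n) (2 * dd n) * w := by
    rcases hw with rfl | rfl | rfl | rfl
    · simp
    · rw [h.ue, e]
    · rw [h.ve]
    · rw [h.uve, e]
  change ee a b i j * w * _ = _ * (ee a b i j * w)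
  rw [mul_assoc, this, ← mul_assoc, ← mul_assoc, h.em, h.em, add_comm i, add_comm j]

theorem rt (h : Rl n a b u v) {S : Subgroup G} (g : Gn S a b u v) {t : G} (ht : t ∈ S) :
    (∃ i j, t = ee a b i j) ∨ (∃ i j, Odd (i + j) ∧ t = ee a b i j * u) ∨
      ∃ s ∈ S, s * t = t * s ∧ s * s = ee a b (2 * dd n) (2 * dd n) := by
  obtain ⟨i, j, w, hw, rfl⟩ := (g t).1 ht
  change (∃ k l, ee a b i j * w = _) ∨ (∃ k l, _ ∧ ee a b i j * w = _) ∨
    ∃ s ∈ S, s * (ee a b i j * w) = (ee a b i j * w) * s ∧ _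
  rcases hw with rfl | rfl | rfl | rfl
  · exact Or.inl ⟨i, j, mul_one _⟩
  · rcases Int.even_or_odd (i + j) with ⟨c, hc⟩ | ho
    · refine Or.inr (Or.inr ⟨ee a b (c - j + 2 * dd n) (c - i) * v,
        (g _).2 ⟨_, _, v, by simp, rfl⟩, ?_, ?_⟩)
      · rw [mul_assoc, ← mul_assoc v, h.ve, mul_assoc, ← h.uv, ← mul_assoc, h.em,
          mul_assoc (ee a b i j), ← mul_assoc w, h.ue, mul_assoc, ← mul_assoc (ee a b i j), h.em]
        congr 1
        exact h.eq_of ⟨1, by linarith⟩ ⟨0, by linarith⟩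
      · rw [mul_assoc, ← mul_assoc v, h.ve, mul_assoc, h.vv, mul_one, h.em]
        exact h.eq_of ⟨0, by linarith⟩ ⟨0, by linarith⟩
    · exact Or.inr (Or.inl ⟨i, j, ho, rfl⟩)
  · refine Or.inr (Or.inr ⟨ee a b (dd n) (dd n), (g _).2 ⟨_, _, 1, by simp, (mul_one _).symm⟩,
      ?_, ?_⟩)
    · rw [mul_assoc, h.ve, ← mul_assoc, ← mul_assoc, h.em, h.em, add_comm i, add_comm j]
    · rw [h.em, two_mul]
  · refine Or.inr (Or.inr ⟨ee a b (dd n) (-dd n), (g _).2 ⟨_, _, 1, by simp, (mul_one _).symm⟩,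
      ?_, ?_⟩)
    · rw [mul_assoc, h.uve, ← mul_assoc, ← mul_assoc (ee a b i j), h.em, h.em, add_comm i,
        add_comm j, neg_neg]
    · rw [h.em]
      exact h.eq_of ⟨0, by ring⟩ ⟨-1, by ring⟩

theorem cu (h : Rl n a b u v) {i j k l : ℤ}
    (e : ee a b k l * (ee a b i j * u) = ee a b i j * u * ee a b k l) :
    ee a b k l = 1 ∨ ee a b k l = ee a b (2 * dd n) 0 ∨ ee a b k l = ee a b 0 (2 * dd n) ∨
      ee a b k l = ee a b (2 * dd n) (2 * dd n) := by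
  rw [mul_assoc, h.ue, ← mul_assoc, ← mul_assoc, h.em, h.em] at e
  obtain ⟨h1, h2⟩ := h.nf (mul_right_cancel e)
  exact h.om (by convert h1 using 1; ring) (by convert h2 using 1; ring)

theorem cuu (h : Rl n a b u v) {i j k l : ℤ}
    (e : ee a b k l * u * (ee a b i j * u) = ee a b i j * u * (ee a b k l * u)) :
    4 * dd n ∣ (k - i) - -(k - i) ∧ 4 * dd n ∣ (l - j) - -(l - j) := by
  rw [mul_assoc, ← mul_assoc u, h.ue, mul_assoc, h.uu, mul_one, h.em,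
    mul_assoc, ← mul_assoc u, h.ue, mul_assoc, h.uu, mul_one, h.em] at e
  obtain ⟨h1, h2⟩ := h.nf e
  exact ⟨by convert h1 using 1; ring, by convert h2 using 1; ring⟩

theorem odc (h : Rl n a b u v) {i j k l : ℤ} (h1 : Even (k - i)) (h2 : Even (l - j)) :
    IsConj (ee a b i j * u) (ee a b k l * u) := by
  obtain ⟨c, hc⟩ := h1
  obtain ⟨d, hd⟩ := h2
  refine isConj_iff.2 ⟨ee a b c d, mul_inv_eq_iff_eq_mul.2 ?_⟩
  rw [mul_assoc, h.ue, ← mul_assoc, ← mul_assoc, h.em, h.em]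
  congr 2 <;> omega

/-- centraliser of an element of odd type -/
theorem co (h : Rl n a b u v) {S : Subgroup G} (g : Gn S a b u v) {i j : ℤ} (ho : Odd (i + j))
    {c : G} (hc : c ∈ S) (e : c * (ee a b i j * u) = ee a b i j * u * c) :
    (c = 1 ∨ c = ee a b (2 * dd n) 0 ∨ c = ee a b 0 (2 * dd n) ∨
      c = ee a b (2 * dd n) (2 * dd n)) ∨ IsConj (ee a b i j * u) c := by
  obtain ⟨k, l, w, hw, rfl⟩ := (g c).1 hc
  change ee a b k l * w * _ = _ * (ee a b k l * w) at e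
  change (ee a b k l * w = _ ∨ ee a b k l * w = _ ∨ ee a b k l * w = _ ∨ ee a b k l * w = _) ∨
    IsConj _ (ee a b k l * w)
  obtain ⟨r, hr⟩ := ho
  rcases hw with rfl | rfl | rfl | rfl
  · rw [mul_one] at e ⊢
    exact Or.inl (h.cu e)
  · obtain ⟨⟨c, h1⟩, ⟨d, h2⟩⟩ := h.cuu e
    exact Or.inr (h.odc ⟨dd n * c, by linarith⟩ ⟨dd n * d, by linarith⟩)
  · rw [mul_assoc, ← mul_assoc w, h.ve, mul_assoc, ← h.uv, ← mul_assoc, h.em,
      mul_assoc (ee a b i j), ← mul_assoc u, h.ue, mul_assoc, ← mul_assoc (ee a b i j), h.em] at e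
    obtain ⟨⟨c, h1⟩, -⟩ := h.nf (mul_right_cancel e)
    have : 4 * dd n * c = 2 * (2 * dd n * c) := by ring
    omega
  · have e1 : ee a b k l * (u * v) * (ee a b i j * u) = ee a b (k + -j) (l + -i) * (u * (u * v)) := by
      rw [mul_assoc, ← mul_assoc (u * v), h.uve, mul_assoc, ← mul_assoc, h.em, mul_assoc u v u,
        ← h.uv]
    have e2 : ee a b i j * u * (ee a b k l * (u * v)) = ee a b (i + -k) (j + -l) * (u * (u * v)) := by
      rw [mul_assoc, ← mul_assoc u, h.ue, mul_assoc, ← mul_assoc (ee a b i j), h.em]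
    rw [e1, e2] at e
    obtain ⟨⟨c, h1⟩, -⟩ := h.nf (mul_right_cancel e)
    have : 4 * dd n * c = 2 * (2 * dd n * c) := by ring
    omega

end Rl

/-- the abelian part extended by one involution -/
def Sb (h : Rl n a b u v) (w : G) (ww : w * w = 1)
    (hw : ∀ i j, ∃ k l, w * ee a b i j = ee a b k l * w) : Subgroup G where
  carrier := {g | ∃ i j, g = ee a b i j ∨ g = ee a b i j * w}
  one_mem' := ⟨0, 0, Or.inl Rl.e0.symm⟩
  mul_mem' := by
    rintro _ _ ⟨i, j, rfl | rfl⟩ ⟨k, l, rfl | rfl⟩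
    · exact ⟨_, _, Or.inl (h.em _ _ _ _)⟩
    · exact ⟨_, _, Or.inr (by rw [← mul_assoc, h.em])⟩
    · obtain ⟨p, q, e⟩ := hw k l
      exact ⟨_, _, Or.inr (by rw [mul_assoc, e, ← mul_assoc, h.em])⟩
    · obtain ⟨p, q, e⟩ := hw k l
      exact ⟨_, _, Or.inl (by
        rw [mul_assoc, ← mul_assoc w, e, mul_assoc, ww, mul_one, h.em])⟩
  inv_mem' := by
    rintro _ ⟨i, j, rfl | rfl⟩
    · exact ⟨-i, -j, Or.inl (inv_eq_of_mul_eq_one_right (by rw [h.em]; simp [Rl.e0]))⟩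
    · obtain ⟨p, q, e⟩ := hw (-i) (-j)
      exact ⟨p, q, Or.inr (inv_eq_of_mul_eq_one_right (by
        rw [← e, mul_assoc, ← mul_assoc w, ww, one_mul, h.em]; simp [Rl.e0]))⟩

end Cfsg.Agent.GT
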