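import Cfsg.Agent.H11.Count

/-! Thompson transfer with control of the centraliser. -/

set_option autoImplicit false

namespace Cfsg.Agent.GT

open MulAction Subgroup

namespace TT

theorem fix4 {G : Type*} [Group G] (h2 : ∀ M : Subgroup G, M.index ≠ 2) {α : Type*} [Finite α]
    [MulAction G α] {u : G} (hu : u * u = 1) (hα : Nat.card α % 4 = 2) :
    Nat.card {a : α // u • a = a} % 4 = 2 := by
  classical
  have := Fintype.ofFinite α
  let f : G →* ℤˣ := Equiv.Perm.sign.comp (toPermHom G α)
  have hfu : f u = 1 := by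
    rcases Int.units_eq_one_or (f u) with e | hfu
    · exact e
    refine absurd ?_ (h2 f.ker)
    rw [index_ker]
    have : f.range = ⊤ := by
      rw [eq_top_iff]
      intro x _
      rcases Int.units_eq_one_or x with rfl | rfl
      · exact one_mem _
      · exact ⟨u, hfu⟩
    rw [this, card_top, Nat.card_eq_fintype_card]; rfl
  have e2 : (toPermHom G α u) ^ 2 = 1 := by rw [← map_pow, pow_two, hu, map_one]
  have h3 := Equiv.Perm.sign_of_pow_two_eq_one e2
  have h4 := Equiv.Perm.card_fixedPoints_modEq (f := (toPermHom G α u : α → α)) (p := 2) (n := 1)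
    (by funext a; exact congrArg (fun σ : Equiv.Perm α => σ a) e2)
  have h5 : Fintype.card (Function.fixedPoints (toPermHom G α u)) ≤ Fintype.card α :=
    Fintype.card_subtype_le _
  have h6 : Even ((Fintype.card α - Fintype.card (Function.fixedPoints (toPermHom G α u))) / 2) := by
    by_contra c
    rw [(Nat.not_even_iff_odd.1 c).neg_one_pow] at h3
    exact absurd (hfu.symm.trans h3) (by decide)
  have h7 : Nat.card {a : α // u • a = a} =
      Fintype.card (Function.fixedPoints (toPermHom G α u)) := by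
    rw [← Nat.card_eq_fintype_card]; rfl
  rw [Nat.card_eq_fintype_card] at hα
  rw [h7]
  obtain ⟨k, hk⟩ := h6
  unfold Nat.ModEq at h4
  change _ = Fintype.card (Function.fixedPoints (toPermHom G α u)) % 2 at h4
  omega

theorem small {T : Type*} [Group T] [Finite T] (hT : IsPGroup 2 T) {β : Type*} [Finite β]
    [MulAction T β] (hβ : Nat.card β % 4 = 2) :
    ∃ b : β, Nat.card T ≤ 2 * Nat.card (stabilizer T b) := by
  classical
  by_contra! c
  have := Fintype.ofFinite β
  have h4 : 4 ∣ Nat.card β := by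
    rw [Nat.card_congr (selfEquivSigmaOrbits T β), Nat.card_sigma]
    refine Finset.dvd_sum fun ω _ => ?_
    have e := (stabilizer T ω.out).index_mul_card
    obtain ⟨k, hk⟩ := hT.index (stabilizer T ω.out)
    have e1 : Nat.card (orbit T ω.out) = (stabilizer T ω.out).index := by
      rw [index_stabilizer]; rfl
    have := c ω.out
    rw [e1, hk]
    rw [hk] at e
    rcases k with _ | _ | k
    · omega
    · omega
    · exact ⟨2 ^ k, by ring⟩
  omega

end TT

theorem tt {G : Type*} [Group G] [Finite G] (h2 : ∀ M : Subgroup G, M.index ≠ 2) (P : Sylow 2 G)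
    (Q : Subgroup G) (hQ : Q ≤ P) (hi : Q.relIndex (P : Subgroup G) = 2) {t : G}
    (ht : orderOf t = 2) (T : Subgroup G) (hT : IsPGroup 2 T) (hc : ∀ x ∈ T, x * t = t * x) :
    ∃ g : G, g * t * g⁻¹ ∈ Q ∧
      Nat.card T ≤ 2 * Nat.card ↥(Q ⊓ Subgroup.centralizer {g * t * g⁻¹}) := by
  let S : SubMulAction T (G ⧸ Q) :=
    { carrier := {a | t • a = a}
      smul_mem' := fun x a ha => by
        show t • (x : G) • a = (x : G) • a
        rw [← mul_smul, ← hc x x.2, mul_smul, show t • a = a from ha] }
  have h1 := TT.fix4 h2 (α := G ⧸ Q) (H11.mul_self_of_orderOf_two ht)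
    (H11.index_mod_four_of_relIndex_two P hQ hi)
  obtain ⟨⟨a, ha⟩, hb⟩ := TT.small hT (β := S) h1
  obtain ⟨g, rfl⟩ := QuotientGroup.mk_surjective a
  have key : ∀ x : G, x • (g : G ⧸ Q) = g → g⁻¹ * x * g⁻¹⁻¹ ∈ Q := fun x hx => by
    have : ((x * g : G) : G ⧸ Q) = g := hx
    simpa [mul_assoc] using QuotientGroup.eq.1 this.symm
  refine ⟨g⁻¹, key t ha, hb.trans (Nat.mul_le_mul_left 2 (Nat.card_le_card_of_injective
    (fun x => ⟨g⁻¹ * (x.1 : G) * g⁻¹⁻¹, key _ (congrArg Subtype.val x.2), ?_⟩) fun x y e => ?_))⟩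
  · refine mem_centralizer_singleton_iff.2 ?_
    have := hc x.1 x.1.2
    calc _ = g⁻¹ * ((x.1 : G) * t) * g := by group
      _ = _ := by rw [this]; group
  · have e1 := congrArg Subtype.val e
    exact Subtype.ext (Subtype.ext (by simpa using e1))

end Cfsg.Agent.GT
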