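import Cfsg.Agent.GT.F1
import Cfsg.Agent.GT.TT
import Cfsg.Agent.S0215

/-! Fusion of involutions for Sylow 2-subgroups of type `G₂(q)`. -/

set_option autoImplicit false

namespace Cfsg.Agent.GT
open Subgroup
open scoped Pointwise

variable {G : Type*} [Group G] [Finite G] {n : ℕ} {a b u v : G}

theorem ext (S : Sylow 2 G) {z : G} (hz : ∀ s ∈ (S : Subgroup G), s * z = z * s) (K : Subgroup G)
    (hK : IsPGroup 2 K) (hc : ∀ k ∈ K, k * z = z * k) :
    ∃ c : G, c * z = z * c ∧ ∀ k ∈ K, c * k * c⁻¹ ∈ (S : Subgroup G) := by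
  have hS : (S : Subgroup G) ≤ centralizer {z} := fun s hs =>
    mem_centralizer_singleton_iff.2 (hz s hs)
  obtain ⟨Q, hQ⟩ := (hK.comap_subtype (K := centralizer {z})).exists_le_sylow
  obtain ⟨c, hc'⟩ := MulAction.exists_smul_eq (centralizer ({z} : Set G)) Q (S.subtype hS)
  refine ⟨c, mem_centralizer_singleton_iff.1 c.2, fun k hk => ?_⟩
  have h1 : (⟨k, mem_centralizer_singleton_iff.2 (hc k hk)⟩ : centralizer ({z} : Set G)) ∈
      (Q : Subgroup _) := hQ hk
  have h2 := smul_mem_pointwise_smul _ (MulAut.conj c) _ h1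
  rw [← Sylow.coe_subgroup_smul, hc'] at h2
  exact h2

theorem ext' (S : Sylow 2 G) {z t : G} (hz : ∀ s ∈ (S : Subgroup G), s * z = z * s)
    (c : IsConj t z) : ∃ g : G, g * t * g⁻¹ = z ∧
      ∀ s ∈ (S : Subgroup G), s * t = t * s → g * s * g⁻¹ ∈ (S : Subgroup G) := by
  obtain ⟨g, hg⟩ := isConj_iff.1 c
  obtain ⟨d, h1, h2⟩ := ext S hz (((S : Subgroup G) ⊓ centralizer {t}).map (MulAut.conj g).toMonoidHom)
    ((S.isPGroup'.to_inf_left).map _) (by
      rintro _ ⟨k, hk, rfl⟩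
      have := mem_centralizer_singleton_iff.1 hk.2
      rw [← hg]
      change g * k * g⁻¹ * _ = _ * (g * k * g⁻¹)
      calc g * k * g⁻¹ * (g * t * g⁻¹) = g * (k * t) * g⁻¹ := by group
        _ = g * (t * k) * g⁻¹ := by rw [this]
        _ = _ := by group)
  refine ⟨d * g, ?_, fun s hs e => ?_⟩
  · calc d * g * t * (d * g)⁻¹ = d * (g * t * g⁻¹) * d⁻¹ := by group
      _ = z := by rw [hg, h1]; group
  · have := h2 _ ⟨s, ⟨hs, mem_centralizer_singleton_iff.2 e⟩, rfl⟩
    have e' : d * g * s * (d * g)⁻¹ = d * (g * s * g⁻¹) * d⁻¹ := by group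
    rw [e']; exact this

namespace Rl

omit [Finite G] in
theorem nd {k : ℤ} (h0 : k ≠ 0) (h1 : |k| < 4 * dd n) : ¬ 4 * dd n ∣ k := fun h =>
  h0 (Int.eq_zero_of_abs_lt_dvd h h1)

omit [Finite G] in
theorem z1 (h : Rl n a b u v) : ee a b (2 * dd n) (2 * dd n) ≠ 1 := fun e => by
  have := dd_pos n
  exact nd (by omega) (by rw [abs_of_pos] <;> omega) (h.nf1 (Or.inl rfl) e).2.1

omit [Finite G] in
theorem zz (h : Rl n a b u v) :
    ee a b (2 * dd n) (2 * dd n) * ee a b (2 * dd n) (2 * dd n) = 1 := by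
  rw [h.em]; exact (h.eq_of ⟨1, by ring⟩ ⟨1, by ring⟩).trans e0

omit [Finite G] in
theorem xy (h : Rl n a b u v) : IsConj (ee a b (2 * dd n) 0) (ee a b 0 (2 * dd n)) :=
  isConj_iff.2 ⟨v, mul_inv_eq_iff_eq_mul.2 (h.ve _ _)⟩

theorem xz (h : Rl n a b u v) (S : Sylow 2 G) (g : Gn (S : Subgroup G) a b u v)
    (hz : ∃ t ∈ (S : Subgroup G), t ≠ ee a b (2 * dd n) (2 * dd n) ∧
      IsConj t (ee a b (2 * dd n) (2 * dd n))) :
    IsConj (ee a b (2 * dd n) 0) (ee a b (2 * dd n) (2 * dd n)) := by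
  by_contra hx
  have hy : ¬ IsConj (ee a b 0 (2 * dd n)) (ee a b (2 * dd n) (2 * dd n)) := fun c =>
    hx (h.xy.trans c)
  have hd := dd_pos n
  have eS : ∀ i j, ee a b i j ∈ (S : Subgroup G) := fun i j =>
    (g _).2 ⟨i, j, 1, by simp, (mul_one _).symm⟩
  have inA : ∀ i j, IsConj (ee a b i j) (ee a b (2 * dd n) (2 * dd n)) →
      ee a b i j = ee a b (2 * dd n) (2 * dd n) := fun i j c => by
    obtain ⟨k, hk⟩ := isConj_iff.1 c.symm
    have : ee a b i j * ee a b i j = 1 := by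
      rw [← hk]
      calc _ = k * (ee a b (2 * dd n) (2 * dd n) * ee a b (2 * dd n) (2 * dd n)) * k⁻¹ := by group
        _ = 1 := by rw [h.zz]; simp
    rcases h.om' this with e | e | e | e
    · exact absurd (isConj_one_right.1 (e ▸ c)) h.z1
    · exact absurd (e ▸ c) hx
    · exact absurd (e ▸ c) hy
    · exact e
  have odd : ∀ t ∈ (S : Subgroup G), t ≠ ee a b (2 * dd n) (2 * dd n) →
      IsConj t (ee a b (2 * dd n) (2 * dd n)) → ∃ i j, Odd (i + j) ∧ t = ee a b i j * u := by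
    intro t ht h1 c
    rcases h.rt g ht with ⟨i, j, rfl⟩ | e | ⟨s, hs, e1, e2⟩
    · exact absurd (inA i j c) h1
    · exact e
    · obtain ⟨k, k1, k2⟩ := ext' S (fun s hs => h.zc g hs) c
      obtain ⟨i, j, e⟩ := h.sq g (k2 s hs e1)
      have e3 : k * ee a b (2 * dd n) (2 * dd n) * k⁻¹ = ee a b i j := by
        rw [← e, ← e2]; group
      have e4 := inA i j (isConj_iff.2 ⟨k, e3⟩).symm
      rw [e4] at e3
      exact absurd (by simpa using k1.trans e3.symm) h1
  obtain ⟨t, ht, h1, c⟩ := hz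
  obtain ⟨i, j, -, rfl⟩ := odd t ht h1 c
  obtain ⟨k, k1, k2⟩ := ext' S (fun s hs => h.zc g hs) c
  have cm : ∀ p q, 4 * dd n ∣ p - -p → 4 * dd n ∣ q - -q →
      ee a b p q * (ee a b i j * u) = ee a b i j * u * ee a b p q := fun p q h1 h2 => by
    rw [mul_assoc, h.ue, ← h.eq_of h1 h2, ← mul_assoc, ← mul_assoc, h.em, h.em, add_comm p,
      add_comm q]
  have d2 : 4 * dd n ∣ 2 * dd n - -(2 * dd n) := ⟨1, by ring⟩
  have d0 : 4 * dd n ∣ 0 - -0 := ⟨0, by ring⟩
  have cz : IsConj (k * ee a b (2 * dd n) (2 * dd n) * k⁻¹) (ee a b (2 * dd n) (2 * dd n)) :=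
    (isConj_iff.2 ⟨k, rfl⟩).symm
  have nz : k * ee a b (2 * dd n) (2 * dd n) * k⁻¹ ≠ ee a b (2 * dd n) (2 * dd n) := fun e =>
    h1 (by simpa using k1.trans e.symm)
  obtain ⟨p, q, ho, e⟩ := odd _ (k2 _ (eS _ _) (cm _ _ d2 d2)) nz cz
  have key : ∀ r s, 4 * dd n ∣ r - -r → 4 * dd n ∣ s - -s →
      ¬ IsConj (ee a b r s) (ee a b (2 * dd n) (2 * dd n)) →
      ∃ r' s', k * ee a b r s * k⁻¹ = ee a b r' s' := fun r s d1 d2' nc => by
    rcases h.co g ho (k2 _ (eS _ _) (cm _ _ d1 d2')) (by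
      rw [← e]
      calc _ = k * (ee a b r s * ee a b (2 * dd n) (2 * dd n)) * k⁻¹ := by group
        _ = k * (ee a b (2 * dd n) (2 * dd n) * ee a b r s) * k⁻¹ := by rw [h.zc g (eS r s)]
        _ = _ := by group) with (e' | e' | e' | e') | c'
    · exact ⟨0, 0, e'.trans e0.symm⟩
    · exact ⟨_, _, e'⟩
    · exact ⟨_, _, e'⟩
    · exact ⟨_, _, e'⟩
    · exact absurd (((isConj_iff.2 ⟨k, rfl⟩).trans c'.symm).trans (e ▸ cz)) nc
  obtain ⟨r, s, e1⟩ := key _ _ d2 d0 hx
  obtain ⟨r', s', e2⟩ := key _ _ d0 d2 hy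
  refine h.ne (Or.inl rfl) (i := r + r') (j := s + s') (k := p) (l := q) ?_
  rw [← e, ← h.em, ← e1, ← e2]
  calc _ = k * (ee a b (2 * dd n) 0 * ee a b 0 (2 * dd n)) * k⁻¹ := by group
    _ = _ := by rw [h.em, add_zero, zero_add]

omit [Finite G] in
theorem idx (h : Rl n a b u v) {S : Subgroup G} (g : Gn S a b u v) {w w' : G} (ww : w * w = 1)
    (hw : ∀ i j, ∃ k l, w * ee a b i j = ee a b k l * w)
    (hww : (w = u ∧ w' = v) ∨ (w = v ∧ w' = u)) :
    Sb h w ww hw ≤ S ∧ (Sb h w ww hw).relIndex S = 2 := by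
  have m : ∀ i j r, r = 1 ∨ r = u ∨ r = v ∨ r = u * v → ee a b i j * r ∈ S := fun i j r hr =>
    (g _).2 ⟨i, j, r, hr, rfl⟩
  have yes : ∀ i j, ee a b i j ∈ Sb h w ww hw ∧ ee a b i j * w ∈ Sb h w ww hw := fun i j =>
    ⟨⟨i, j, Or.inl rfl⟩, ⟨i, j, Or.inr rfl⟩⟩
  have no : w' ∉ Sb h w ww hw := by
    rintro ⟨k, l, e | e⟩
    · refine h.ne (w := w') (by tauto) (i := k) (j := l) (k := 0) (l := 0) ?_
      rw [e0, one_mul, e]
    · refine h.ne (w := u * v) (by tauto) (i := k) (j := l) (k := 0) (l := 0) ?_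
      rw [e0, one_mul]
      have : ee a b k l = w' * w := by rw [e, mul_assoc, ww, mul_one]
      rcases hww with ⟨rfl, rfl⟩ | ⟨rfl, rfl⟩
      · rw [this, h.uv]
      · exact this
  have w2 : w' * w' = 1 := by rcases hww with ⟨-, rfl⟩ | ⟨-, rfl⟩; exacts [h.vv, h.uu]
  refine ⟨?_, relIndex_eq_two_iff.2 ⟨w', ?_, fun s hs => ?_⟩⟩
  · rintro _ ⟨i, j, rfl | rfl⟩
    · simpa using m i j 1 (by simp)
    · exact m i j w (by tauto)
  · simpa [e0] using m 0 0 w' (by tauto)
  · have key : s ∈ Sb h w ww hw ∨ s * w' ∈ Sb h w ww hw := by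
      obtain ⟨i, j, r, hr, rfl⟩ := (g s).1 hs
      change ee a b i j * r ∈ _ ∨ ee a b i j * r * w' ∈ _
      rcases hww with ⟨rfl, rfl⟩ | ⟨rfl, rfl⟩ <;> rcases hr with rfl | rfl | rfl | rfl
      · exact Or.inl (by simpa using (yes i j).1)
      · exact Or.inl (yes i j).2
      · exact Or.inr (by rw [mul_assoc, w2, mul_one]; exact (yes i j).1)
      · exact Or.inr (by rw [mul_assoc, mul_assoc, w2, mul_one]; exact (yes i j).2)
      · exact Or.inl (by simpa using (yes i j).1)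
      · exact Or.inr (by rw [mul_assoc, w2, mul_one]; exact (yes i j).1)
      · exact Or.inl (yes i j).2
      · exact Or.inr (by rw [h.uv, mul_assoc, mul_assoc, w2, mul_one]; exact (yes i j).2)
    have nb : ¬ (s ∈ Sb h w ww hw ∧ s * w' ∈ Sb h w ww hw) := fun c =>
      no (by simpa using mul_mem (inv_mem c.1) c.2)
    unfold Xor
    tauto

end Rl

theorem main [IsSimpleGroup G] (h : Rl n a b u v) (S : Sylow 2 G)
    (g : Gn (S : Subgroup G) a b u v) :
    (∀ x y : G, orderOf x = 2 → orderOf y = 2 → IsConj x y) ∨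
      (n = 2 ∧ ∃ x y : G, orderOf x = 2 ∧ orderOf y = 2 ∧ ¬ IsConj x y ∧
        ∀ z : G, orderOf z = 2 → IsConj z x ∨ IsConj z y) := by
  classical
  have hd := dd_pos n
  have eS : ∀ i j, ee a b i j ∈ (S : Subgroup G) := fun i j =>
    (g _).2 ⟨i, j, 1, by simp, (mul_one _).symm⟩
  have oz : orderOf (ee a b (2 * dd n) (2 * dd n)) = 2 :=
    orderOf_eq_prime (by rw [pow_two]; exact h.zz) h.z1
  have ov : orderOf v = 2 := orderOf_eq_prime (by rw [pow_two]; exact h.vv) h.v1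
  have nc : ¬ ∀ x : G, ee a b (2 * dd n) (2 * dd n) * x = x * ee a b (2 * dd n) (2 * dd n) := by
    intro c
    have h1 : center G = ⊤ := (Normal.eq_bot_or_eq_top inferInstance).resolve_left fun e =>
      h.z1 (mem_bot.1 (e ▸ mem_center_iff.2 fun x => (c x).symm))
    have h2 : v * ee a b 1 0 = ee a b 1 0 * v := (mem_center_iff.1 (h1 ▸ mem_top v) _).symm
    rw [h.ve] at h2
    exact Rl.nd (by omega) (by simp; omega) (h.nf (mul_right_cancel h2)).2
  have h2 : ∀ M : Subgroup G, M.index ≠ 2 := fun M e => by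
    rcases (normal_of_index_eq_two e).eq_bot_or_eq_top with rfl | rfl
    · rw [index_bot] at e
      haveI := isCyclic_of_prime_card e
      exact nc fun x => IsCyclic.isMulCommutative.is_comm.comm _ _
    · simp at e
  have hz : ∃ t ∈ (S : Subgroup G), t ≠ ee a b (2 * dd n) (2 * dd n) ∧
      IsConj t (ee a b (2 * dd n) (2 * dd n)) := by
    by_contra c
    obtain ⟨N, hN, ho, hc⟩ := S0215.result S _ oz (eS _ _) fun k hk => by
      by_contra e
      exact c ⟨_, hk, e, (isConj_iff.2 ⟨k, rfl⟩).symm⟩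
    rcases hN.eq_bot_or_eq_top with rfl | rfl
    · exact nc fun x => by
        have := mem_bot.1 (hc x)
        rwa [mul_inv_eq_one, mul_inv_eq_iff_eq_mul] at this
    · rw [card_top] at ho
      exact ho.not_two_dvd_nat (oz ▸ orderOf_dvd_natCard _)
  have hx := h.xz S g hz
  have inA : ∀ t : G, orderOf t = 2 → ∀ k i j, k * t * k⁻¹ = ee a b i j →
      IsConj t (ee a b (2 * dd n) (2 * dd n)) := fun t ht k i j e => by
    have c : IsConj t (ee a b i j) := isConj_iff.2 ⟨k, e⟩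
    have t2 : t * t = 1 := by rw [← pow_two, ← ht, pow_orderOf_eq_one]
    rcases h.om' (i := i) (j := j) (by
      rw [← e]
      calc _ = k * (t * t) * k⁻¹ := by group
        _ = 1 := by rw [t2]; simp) with e' | e' | e' | e'
    · rw [e', isConj_one_left] at c
      rw [c, orderOf_one] at ht
      omega
    · exact (e' ▸ c).trans hx
    · exact ((e' ▸ c).trans h.xy.symm).trans hx
    · exact e' ▸ c
  have all : ∀ t : G, orderOf t = 2 → IsConj t (ee a b (2 * dd n) (2 * dd n)) ∨ IsConj t v := by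
    intro t ht
    obtain ⟨l1, l2⟩ := h.idx g h.vv (fun i j => ⟨_, _, h.ve i j⟩) (Or.inr ⟨rfl, rfl⟩)
    obtain ⟨k, ⟨i, j, e | e⟩, -⟩ := tt h2 S _ l1 l2 ht ⊥ IsPGroup.of_bot (by simp)
    · exact Or.inl (inA t ht k i j e)
    · have t2 : t * t = 1 := by rw [← pow_two, ← ht, pow_orderOf_eq_one]
      have e2 : ee a b i j * v * (ee a b i j * v) = 1 := by
        rw [← e]
        calc _ = k * (t * t) * k⁻¹ := by group
          _ = 1 := by rw [t2]; simp
      rw [mul_assoc, ← mul_assoc v, h.ve, mul_assoc, h.vv, mul_one, h.em] at e2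
      refine Or.inr ((isConj_iff.2 ⟨k, e⟩).trans (IsConj.symm (isConj_iff.2
        ⟨ee a b i 0, mul_inv_eq_iff_eq_mul.2 ?_⟩)))
      rw [mul_assoc, h.ve, ← mul_assoc, h.em]
      congr 1
      exact h.eq_of (by
        have := (h.nf1 (Or.inl rfl) e2).2.1
        simp) (by
        obtain ⟨c, hc⟩ := (h.nf1 (Or.inl rfl) e2).2.1
        exact ⟨-c, by linarith⟩)
  by_cases c : IsConj (ee a b (2 * dd n) (2 * dd n)) v
  · refine Or.inl fun x y hx hy => ?_
    have : ∀ t : G, orderOf t = 2 → IsConj t v := fun t ht =>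
      (all t ht).elim (fun e => e.trans c) id
    exact (this x hx).trans (this y hy).symm
  refine Or.inr ⟨?_, _, v, oz, ov, c, all⟩
  by_contra n2
  have d2 : 2 ≤ dd n := by
    obtain ⟨k, rfl⟩ : ∃ k, n = k + 3 := ⟨n - 3, by have := h.hn; omega⟩
    have : (0 : ℤ) < 2 ^ k := by positivity
    simp only [dd, show k + 3 - 2 = k + 1 by omega, pow_succ]
    omega
  obtain ⟨l1, l2⟩ := h.idx g h.uu (fun i j => ⟨_, _, h.ue i j⟩) (Or.inl ⟨rfl, rfl⟩)
  obtain ⟨k, ⟨i, j, e | e⟩, hk⟩ := tt h2 S _ l1 l2 ov ((S : Subgroup G) ⊓ centralizer {v})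
    S.isPGroup'.to_inf_left fun x hx => mem_centralizer_singleton_iff.1 hx.2
  · exact c (inA v ov k i j e).symm
  rw [e] at hk
  have up : Nat.card ↥(Sb h u h.uu (fun i j => ⟨_, _, h.ue i j⟩) ⊓
      centralizer {ee a b i j * u}) ≤ 8 := by
    let L : List G := [1, ee a b (2 * dd n) 0, ee a b 0 (2 * dd n), ee a b (2 * dd n) (2 * dd n)]
    have sub : ((Sb h u h.uu (fun i j => ⟨_, _, h.ue i j⟩) ⊓ centralizer {ee a b i j * u} :
        Subgroup G) : Set G) ⊆ ↑((L ++ L.map (· * (ee a b i j * u))).toFinset) := by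
      rintro _ ⟨⟨p, q, rfl | rfl⟩, hc⟩
      · have := h.cu (mem_centralizer_singleton_iff.1 hc)
        simp only [L, List.coe_toFinset, List.mem_append, List.mem_cons, Set.mem_ofPred_eq]
        tauto
      · obtain ⟨h1, h2⟩ := h.cuu (mem_centralizer_singleton_iff.1 hc)
        have e1 : ee a b p q * u = ee a b (p - i) (q - j) * (ee a b i j * u) := by
          rw [← mul_assoc, h.em]; simp
        have := h.om h1 h2
        rw [e1, List.coe_toFinset, Set.mem_ofPred_eq, List.mem_append]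
        refine Or.inr (List.mem_map.2 ⟨_, ?_, rfl⟩)
        simp only [L, List.mem_cons]
        tauto
    have := Set.ncard_le_ncard sub (Set.toFinite _)
    rw [Set.ncard_coe_finset, ← Nat.card_coe_set_eq] at this
    exact this.trans ((List.toFinset_card_le _).trans (by simp [L]))
  have uS : u ∈ (S : Subgroup G) := (g _).2 ⟨0, 0, u, by simp, by simp⟩
  have vS : v ∈ (S : Subgroup G) := (g _).2 ⟨0, 0, v, by simp, by simp⟩
  let W : Fin 3 → G := ![1, u, v]
  have hW : ∀ r, W r ∈ (S : Subgroup G) ⊓ centralizer {v} := fun r => by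
    fin_cases r
    · exact one_mem _
    · exact ⟨uS, mem_centralizer_singleton_iff.2 h.uv⟩
    · exact ⟨vS, mem_centralizer_singleton_iff.2 rfl⟩
  let f : Fin 8 × Fin 3 → ↥((S : Subgroup G) ⊓ centralizer {v}) := fun p =>
    ⟨ee a b p.1 p.1 * W p.2, mul_mem ⟨eS _ _, mem_centralizer_singleton_iff.2 (h.ve _ _).symm⟩
      (hW _)⟩
  have inj : Function.Injective f := by
    rintro ⟨p, r⟩ ⟨q, s⟩ e
    have e1 : ee a b p p * W r = ee a b q q * W s := congrArg Subtype.val e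
    have e2 : r = s := by
      by_contra hne
      have e3 : ee a b p p = ee a b q q * (W s * W r) := by
        have : W r * W r = 1 := by fin_cases r <;> simp [W, h.uu, h.vv]
        rw [← mul_assoc, ← e1, mul_assoc, this, mul_one]
      refine h.ne ?_ e3
      fin_cases r <;> fin_cases s <;> simp_all [W, ← h.uv]
    subst e2
    have e4 := (h.nf (mul_right_cancel e1)).1
    have : (p : ℤ) - q = 0 := by
      by_contra e5
      refine Rl.nd e5 ?_ e4
      have := p.2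
      have := q.2
      rw [abs_lt]; constructor <;> omega
    exact Prod.ext (Fin.ext (by simp only; omega)) rfl
  have := Nat.card_le_card_of_injective f inj
  rw [Nat.card_prod, Nat.card_fin, Nat.card_fin] at this
  omega

end Cfsg.Agent.GT
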