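import Cfsg.Agent.GT.A

/-! Piece MD: explicit matrices giving the relations `Rl`. -/

set_option autoImplicit false

namespace Cfsg.Agent.GT

namespace MDx

open QuadraticAlgebra

variable {F : Type*} [Field F]

/-- the algebra `F[i]` -/
abbrev KK (F : Type*) [Field F] := QuadraticAlgebra F (-1) 0

/-- evaluation at a square root of `-1` -/
def ev (i : F) (hi : i * i = -1) : KK F →* F where
  toFun z := z.re + i * z.im
  map_one' := by simp
  map_mul' z w := by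
    simp only [re_mul, im_mul]
    linear_combination (-(z.im * w.im)) * hi

theorem two_ne [Fintype F] (hF : Odd (Fintype.card F)) : (2 : F) ≠ 0 := by
  apply Ring.two_ne_zero
  intro h
  have := FiniteField.even_card_iff_char_two.1 h
  have := Nat.odd_iff.1 hF
  omega

theorem zeta [Fintype F] (hF : Odd (Fintype.card F)) : ∃ n : ℕ, 2 ≤ n ∧
    (Fintype.card F ^ 2 - 1).factorization 2 = n + 1 ∧
    ∃ ζ : KK F, ζ * star ζ = 1 ∧ orderOf ζ = 2 ^ n := by
  classical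
  have h2 := two_ne hF
  obtain ⟨q, hq⟩ : ∃ q, Fintype.card F = q := ⟨_, rfl⟩
  have hq1 : 1 < q := hq ▸ Fintype.one_lt_card
  have ho : q % 2 = 1 := hq ▸ Nat.odd_iff.1 hF
  obtain ⟨m, rfl⟩ : ∃ m, q = m + 1 := ⟨q - 1, by omega⟩
  have hsq : (m + 1) ^ 2 - 1 = m * (m + 2) := by
    rw [show (m + 1) ^ 2 = m * (m + 2) + 1 by ring, Nat.add_sub_cancel]
  have hne : m * (m + 2) ≠ 0 := Nat.mul_ne_zero (by omega) (by omega)
  have h8 : 2 ^ 3 ∣ m * (m + 2) := by
    obtain ⟨l, rfl⟩ : ∃ l, m = 2 * l := ⟨m / 2, by omega⟩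
    obtain ⟨r, hr⟩ := Nat.even_mul_succ_self l
    exact ⟨r, by nlinarith⟩
  have h3 := (Nat.prime_two.pow_dvd_iff_le_factorization hne).1 h8
  obtain ⟨n, hn⟩ : ∃ n, (m * (m + 2)).factorization 2 = n + 1 :=
    ⟨(m * (m + 2)).factorization 2 - 1, by omega⟩
  have hd : 2 ^ (n + 1) ∣ m * (m + 2) :=
    (Nat.prime_two.pow_dvd_iff_le_factorization hne).2 hn.ge
  have cU : Nat.card Fˣ = m := by
    rw [Nat.card_eq_fintype_card, Fintype.card_units, hq, Nat.add_sub_cancel]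
  refine ⟨n, by omega, by rw [hq, hsq, hn], ?_⟩
  by_cases hs : IsSquare (-1 : F)
  · have h4 := FiniteField.isSquare_neg_one_iff.1 hs
    rw [hq] at h4
    obtain ⟨i, hi⟩ := hs
    have hi' : i * i = -1 := hi.symm
    have hi0 : i ≠ 0 := fun e => by simp [e] at hi'
    obtain ⟨l, hl⟩ : ∃ l, m + 2 = 2 * (2 * l + 1) := ⟨m / 4, by omega⟩
    have hd2 : 2 ^ n ∣ m := by
      rw [hl, pow_succ', show m * (2 * (2 * l + 1)) = 2 * (m * (2 * l + 1)) by ring] at hd
      refine Nat.Coprime.dvd_of_dvd_mul_right ?_ (Nat.dvd_of_mul_dvd_mul_left two_pos hd)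
      exact Nat.Coprime.pow_left n ((Nat.coprime_two_left).2 (odd_two_mul_add_one l))
    obtain ⟨g, hg⟩ := IsCyclic.exists_ofOrder_eq_natCard (α := Fˣ)
    obtain ⟨t, ht⟩ : ∃ t : Fˣ, orderOf t = 2 ^ n :=
      ⟨_, orderOf_pow_orderOf_div (orderOf_pos g).ne' (by rw [hg, cU]; exact hd2)⟩
    have ht0 : (t : F) ≠ 0 := t.ne_zero
    have hi'' : (-i) * (-i) = -1 := by rw [neg_mul_neg, hi']
    set z : KK F := ⟨((t : F) + (t : F)⁻¹) / 2, ((t : F) - (t : F)⁻¹) / (2 * i)⟩ with hz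
    have e1 : ev i hi' z = t := by
      show ((t : F) + (t : F)⁻¹) / 2 + i * (((t : F) - (t : F)⁻¹) / (2 * i)) = t
      field_simp; ring
    have e2 : ev (-i) hi'' z = (t : F)⁻¹ := by
      show ((t : F) + (t : F)⁻¹) / 2 + (-i) * (((t : F) - (t : F)⁻¹) / (2 * i)) = (t : F)⁻¹
      field_simp; ring
    have inj : ∀ y : KK F, ev i hi' y = 1 → ev (-i) hi'' y = 1 → y = 1 := fun y a b => by
      have a' : y.re + i * y.im = 1 := a
      have b' : y.re + (-i) * y.im = 1 := b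
      have c1 : y.im = 0 := by
        have : (2 * i) * y.im = 0 := by linear_combination a' - b'
        exact (mul_eq_zero.1 this).resolve_left (mul_ne_zero h2 hi0)
      ext
      · rw [c1] at a'; simpa using a'
      · simpa using c1
    have s1 : ∀ y : KK F, ev i hi' (star y) = ev (-i) hi'' y := fun y => by
      show (star y).re + i * (star y).im = y.re + (-i) * y.im
      simp
    have s2 : ∀ y : KK F, ev (-i) hi'' (star y) = ev i hi' y := fun y => by
      show (star y).re + (-i) * (star y).im = y.re + i * y.im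
      simp
    refine ⟨z, inj _ ?_ ?_, ?_⟩
    · rw [map_mul, s1, e1, e2, mul_inv_cancel₀ ht0]
    · rw [map_mul, s2, e1, e2, inv_mul_cancel₀ ht0]
    · rw [← ht, ← orderOf_units, orderOf_eq_orderOf_iff]
      intro k
      constructor
      · intro h
        rw [← e1, ← map_pow, h, map_one]
      · intro h
        exact inj _ (by rw [map_pow, e1, h]) (by rw [map_pow, e2, inv_pow, h, inv_one])
  · have h4 : (m + 1) % 4 = 3 := by
      by_contra h4
      exact hs (FiniteField.isSquare_neg_one_iff.2 (hq ▸ h4))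
    haveI : Fact (∀ r : F, r ^ 2 ≠ -1 + 0 * r) := ⟨fun r hr => hs ⟨r, by
      rw [zero_mul, add_zero] at hr; rw [← hr, sq]⟩⟩
    haveI : Finite (KK F) := Finite.of_equiv _ (equivProd (-1 : F) 0).symm
    have cK : Nat.card (KK F)ˣ = m * (m + 2) := by
      rw [Nat.card_units, Nat.card_congr (equivProd (-1 : F) 0), Nat.card_prod,
        Nat.card_eq_fintype_card, hq, ← sq, hsq]
    obtain ⟨g0, hg0⟩ := IsCyclic.exists_ofOrder_eq_natCard (α := (KK F)ˣ)
    obtain ⟨g, hg⟩ : ∃ g : (KK F)ˣ, orderOf g = 2 ^ (n + 1) :=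
      ⟨_, orderOf_pow_orderOf_div (orderOf_pos g0).ne' (by rw [hg0, cK]; exact hd)⟩
    set t : Fˣ := Units.map (norm : KK F →* F) g with ht
    have h5 : orderOf t ∣ 2 ^ (n + 1) := hg ▸ orderOf_map_dvd _ g
    obtain ⟨e, -, he⟩ := (Nat.dvd_prime_pow Nat.prime_two).1 h5
    have h6 : 2 ^ e ∣ m := by rw [← he, ← cU]; exact orderOf_dvd_natCard t
    have h7 : e ≤ 1 := by
      by_contra h7
      have : 2 ^ 2 ∣ m := (pow_dvd_pow 2 (by omega)).trans h6
      omega
    have h9 : t ^ 2 = 1 := orderOf_dvd_iff_pow_eq_one.1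
      (he ▸ (pow_dvd_pow 2 h7).trans (by norm_num))
    refine ⟨((g ^ 2 : (KK F)ˣ) : KK F), ?_, ?_⟩
    · rw [← algebraMap_norm_eq_mul_star, Units.val_pow_eq_pow_val, map_pow]
      have : norm (g : KK F) ^ 2 = 1 := congrArg Units.val h9
      rw [this, map_one]
    · rw [orderOf_units]
      have := orderOf_pow_orderOf_div (x := g) (n := 2 ^ n) (orderOf_pos g).ne'
        (by rw [hg]; exact pow_dvd_pow 2 (by omega))
      rwa [hg, pow_succ', Nat.mul_div_cancel _ (by positivity)] at this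

/-- the matrix of multiplication -/
def mat : KK F →* Matrix (Fin 2) (Fin 2) F where
  toFun z := !![z.re, -z.im; z.im, z.re]
  map_one' := by
    ext i j; fin_cases i <;> fin_cases j <;> simp
  map_mul' z w := by
    ext i j; fin_cases i <;> fin_cases j <;> simp [Matrix.mul_apply, Fin.sum_univ_two] <;> ring

/-- units to invertible matrices -/
def Φ : (KK F)ˣ →* GL (Fin 2) F := Units.map mat

/-- conjugation -/
def cj : (KK F)ˣ →* (KK F)ˣ := Units.map (starRingEnd (KK F)).toMonoidHom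

/-- the reflection -/
def σ : GL (Fin 2) F :=
  ⟨!![1, 0; 0, -1], !![1, 0; 0, -1],
    by ext i j; fin_cases i <;> fin_cases j <;> simp [Matrix.mul_apply, Fin.sum_univ_two],
    by ext i j; fin_cases i <;> fin_cases j <;> simp [Matrix.mul_apply, Fin.sum_univ_two]⟩

theorem cj_val (y : (KK F)ˣ) : ((cj y : (KK F)ˣ) : KK F) = star (y : KK F) := rfl

theorem Φ_val (y : (KK F)ˣ) : ((Φ y : GL (Fin 2) F) : Matrix (Fin 2) (Fin 2) F) =
    !![(y : KK F).re, -(y : KK F).im; (y : KK F).im, (y : KK F).re] := rfl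

theorem σ_val : ((σ : GL (Fin 2) F) : Matrix (Fin 2) (Fin 2) F) = !![1, 0; 0, -1] := rfl

theorem cj_cj (y : (KK F)ˣ) : cj (cj y) = y := Units.ext (star_star (y : KK F))

theorem cj_neg (y : (KK F)ˣ) : cj (-y) = -cj y := Units.ext (star_neg (y : KK F))

theorem r1 (y : (KK F)ˣ) : Φ y * σ = σ * Φ (cj y) := by
  apply Units.ext
  simp only [Units.val_mul, Φ_val, σ_val, cj_val]
  ext i j; fin_cases i <;> fin_cases j <;> simp [Matrix.mul_apply, Fin.sum_univ_two]

theorem ss : (σ : GL (Fin 2) F) * σ = 1 := Units.ext σ.val_inv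

theorem m1 (y z : (KK F)ˣ) : Φ y * (σ * Φ z) = σ * Φ (cj y * z) := by
  rw [← mul_assoc, r1, mul_assoc, map_mul]

theorem m2 (y z : (KK F)ˣ) : σ * Φ y * (σ * Φ z) = Φ (cj y * z) := by
  rw [mul_assoc, m1, ← mul_assoc, ss, one_mul]

theorem m3 (y z : (KK F)ˣ) : σ * Φ y * Φ z = σ * Φ (y * z) := by
  rw [mul_assoc, map_mul]

theorem m4 (y z : (KK F)ˣ) : Φ y * Φ z = Φ (y * z) := (map_mul _ _ _).symm

theorem Φ_inj : Function.Injective (Φ : (KK F)ˣ → GL (Fin 2) F) := fun y z h => by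
  have h1 := congrArg Units.val h
  rw [Φ_val, Φ_val] at h1
  apply Units.ext
  ext
  · simpa using congrFun (congrFun h1 0) 0
  · simpa using congrFun (congrFun h1 1) 0

theorem nk (h2 : (2 : F) ≠ 0) (y z : (KK F)ˣ) : Φ y ≠ σ * Φ z := fun h => by
  have h0 : Φ (y * z⁻¹) = σ := by rw [map_mul, h, map_inv, mul_inv_cancel_right]
  have h1 := congrArg Units.val h0
  rw [Φ_val, σ_val] at h1
  have a : ((y * z⁻¹ : (KK F)ˣ) : KK F).re = 1 := congrFun (congrFun h1 0) 0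
  have b : ((y * z⁻¹ : (KK F)ˣ) : KK F).re = -1 := congrFun (congrFun h1 1) 1
  exact h2 (by linear_combination b - a)

theorem detΦ (y : (KK F)ˣ) : ((Matrix.GeneralLinearGroup.det (Φ y) : Fˣ) : F) = norm (y : KK F) := by
  rw [Matrix.GeneralLinearGroup.val_det_apply, Φ_val, Matrix.det_fin_two_of, norm_def]; ring

theorem detσ : ((Matrix.GeneralLinearGroup.det (σ : GL (Fin 2) F) : Fˣ) : F) = -1 := by
  rw [Matrix.GeneralLinearGroup.val_det_apply, σ_val, Matrix.det_fin_two_of]; ring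

/-- pairs -/
def pr (g h : GL (Fin 2) F) (e : ((Matrix.GeneralLinearGroup.det g : Fˣ) : F) =
    ((Matrix.GeneralLinearGroup.det h : Fˣ) : F)) : MM F := ⟨(g, h), Units.ext e⟩

variable {H : Type*} [Group H] {Θ : MM F →* H}

theorem eqv (h2 : (2 : F) ≠ 0) (hΘ : Kr Θ) (p p' : MM F) (r : (KK F)ˣ) (hr : cj r = r)
    (e1 : p.1.1 = p'.1.1 * Φ r) (e2 : p.1.2 = p'.1.2 * Φ r) : Θ p = Θ p' := by
  have h0 : (r : KK F).im = 0 := by
    have : (star (r : KK F)).im = (r : KK F).im := congrArg (fun t : (KK F)ˣ => (t : KK F).im) hr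
    rw [im_star] at this
    have h3 : 2 * (r : KK F).im = 0 := by linear_combination -this
    exact (mul_eq_zero.1 h3).resolve_left h2
  have h1 : ((Φ r : GL (Fin 2) F) : Matrix (Fin 2) (Fin 2) F) = (r : KK F).re • 1 := by
    rw [Φ_val, h0]
    ext i j; fin_cases i <;> fin_cases j <;> simp
  have h3 : Θ (pr (Φ r) (Φ r) rfl) = 1 := (hΘ _).2 ⟨_, h1, h1⟩
  have h4 : p = p' * pr (Φ r) (Φ r) rfl := Subtype.ext (Prod.ext e1 e2)
  rw [h4, map_mul, h3, mul_one]

theorem inv (hΘ : Kr Θ) {p p' : MM F} (h : Θ p = Θ p') : ∃ r : (KK F)ˣ, cj r = r ∧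
    p.1.1 = p'.1.1 * Φ r ∧ p.1.2 = p'.1.2 * Φ r := by
  obtain ⟨c, c1, c2⟩ := (hΘ (p'⁻¹ * p)).1 (by rw [map_mul, map_inv, h, inv_mul_cancel])
  have hc : c ≠ 0 := fun e => by
    rw [e, zero_smul] at c1
    exact Units.ne_zero _ c1
  set r : (KK F)ˣ := Units.map (algebraMap F (KK F)).toMonoidHom (Units.mk0 c hc) with hr
  have h1 : ((Φ r : GL (Fin 2) F) : Matrix (Fin 2) (Fin 2) F) = c • 1 := by
    show !![c, -0; 0, c] = _
    ext i j; fin_cases i <;> fin_cases j <;> simp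
  refine ⟨r, Units.ext ?_, ?_, ?_⟩
  · show star (⟨c, 0⟩ : KK F) = ⟨c, 0⟩
    ext <;> simp
  · have : p'.1.1⁻¹ * p.1.1 = Φ r := Units.ext (c1.trans h1.symm)
    rw [← this, mul_inv_cancel_left]
  · have : p'.1.2⁻¹ * p.1.2 = Φ r := Units.ext (c2.trans h1.symm)
    rw [← this, mul_inv_cancel_left]

end MDx

open MDx QuadraticAlgebra in
theorem md {F : Type*} [Field F] [Fintype F] (hF : Odd (Fintype.card F)) {H : Type*} [Group H]
    (Θ : MM F →* H) (hΘ : Kr Θ) : ∃ (n : ℕ) (a b u v : H), Rl n a b u v ∧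
      (Fintype.card F ^ 2 - 1).factorization 2 = n + 1 := by
  have h2 := two_ne hF
  obtain ⟨n, hn, hf, z, hz, oz⟩ := zeta hF
  obtain ⟨p, hp⟩ := CharP.exists F
  haveI : NeZero p := ⟨CharP.char_ne_zero_of_finite F p⟩
  obtain ⟨c, s, hcs⟩ := CharP.sq_add_sq F p (-1)
  have hcs' : (c : F) ^ 2 + (s : F) ^ 2 = -1 := by simpa using hcs
  have un : ∀ y : KK F, norm y ≠ 0 → ∃ t : (KK F)ˣ, (t : KK F) = y := fun y hy =>
    (isUnit_iff_norm_isUnit.2 (isUnit_iff_ne_zero.2 hy))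
  have nk0 : norm (⟨c, s⟩ : KK F) = -1 := by rw [norm_def]; linear_combination hcs'
  have nj0 : norm (⟨0, 1⟩ : KK F) = 1 := by rw [norm_def]; ring
  obtain ⟨k, hk⟩ := un ⟨c, s⟩ (by rw [nk0]; exact neg_ne_zero.2 one_ne_zero)
  obtain ⟨j, hj⟩ := un ⟨0, 1⟩ (by rw [nj0]; exact one_ne_zero)
  have nz : norm z = 1 := algebraMap_injective (by rw [algebraMap_norm_eq_mul_star, hz, map_one])
  obtain ⟨ζ, rfl⟩ := un z (by rw [nz]; exact one_ne_zero)
  rw [orderOf_units] at oz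
  obtain ⟨x, hx⟩ := un (1 + (ζ : KK F)) (fun e => by
    rw [norm_def] at e nz
    simp only [re_add, im_add, re_one, im_one] at e
    have e1 : (ζ : KK F).re = -1 := by
      have : 2 * ((ζ : KK F).re + 1) = 0 := by linear_combination e - nz
      exact eq_neg_of_add_eq_zero_left ((mul_eq_zero.1 this).resolve_left h2)
    have e2 : (ζ : KK F).im = 0 := by
      rw [e1] at nz
      exact mul_self_eq_zero.1 (by linear_combination nz)
    have e3 : ζ ^ 2 = 1 := by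
      apply Units.ext
      rw [Units.val_pow_eq_pow_val, sq]
      ext <;> simp [e1, e2]
    have e4 := orderOf_dvd_of_pow_eq_one e3
    rw [oz] at e4
    have : 2 ^ 2 ∣ 2 := (pow_dvd_pow 2 hn).trans e4
    omega)
  have xz : x = ζ * cj x := Units.ext (by
    rw [Units.val_mul, cj_val, hx, star_add, star_one, mul_add, hz, mul_one, add_comm])
  have kk : cj k * k = -1 := Units.ext (by
    rw [Units.val_mul, cj_val, mul_comm, ← algebraMap_norm_eq_mul_star, hk, nk0]; simp)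
  have jj : j * j = -1 := Units.ext (by
    rw [Units.val_mul, hj]; ext <;> simp)
  have cjj : cj j = -j := Units.ext (by
    rw [cj_val, Units.val_neg, hj]; ext <;> simp)
  have c1 : cj (-1 : (KK F)ˣ) = -1 := by rw [cj_neg, map_one]
  have zp : ∀ i : ℤ, x ^ i = cj x ^ i ↔ (2 ^ n : ℤ) ∣ i := fun i => by
    conv_lhs => rw [xz, map_mul, cj_cj]
    have : cj ζ * x = cj x := by
      conv_rhs => rw [xz, map_mul, cj_cj]
    rw [this, mul_zpow, mul_eq_right, ← orderOf_dvd_iff_zpow_eq_one, oz]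
    push_cast; rfl
  have xN : x ^ 2 ^ n = cj x ^ 2 ^ n := by
    have := (zp (2 ^ n : ℕ)).2 (by push_cast; rfl)
    rwa [zpow_natCast, zpow_natCast] at this
  set A : MM F := pr (Φ x) (Φ (cj x)) (by rw [detΦ, detΦ, cj_val, QuadraticAlgebra.norm_star]) with hA
  set B : MM F := pr (Φ x) (Φ x) rfl with hB
  set U : MM F := pr (σ * Φ k) (σ * Φ (cj k * j)) (by
    simp only [map_mul, Units.val_mul, detΦ, cj_val, QuadraticAlgebra.norm_star, hj, nj0,
      mul_one]) with hU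
  set V : MM F := pr (Φ j) (σ * Φ (cj k)) (by
    simp only [map_mul, Units.val_mul, detΦ, detσ, cj_val, QuadraticAlgebra.norm_star, hj, nj0,
      hk, nk0]
    ring) with hV
  have one : (1 : H) = Θ 1 := (map_one Θ).symm
  have uv1 : (U * V).1.1 = σ * Φ (k * j) := m3 _ _
  refine ⟨n, Θ A, Θ B, Θ U, Θ V, ⟨hn, ?_, ?_, ?_, ?_, ?_, ?_, ?_, ?_, ?_, ?_, ?_, ?_, ?_⟩, hf⟩
  · rw [← map_pow, one]
    refine eqv h2 hΘ _ _ (x ^ 2 ^ n) (by rw [map_pow, xN]) ?_ ?_
    · show Φ x ^ 2 ^ n = 1 * _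
      rw [one_mul, map_pow]
    · show Φ (cj x) ^ 2 ^ n = 1 * _
      rw [one_mul, xN, map_pow]
  · rw [← map_pow, one]
    refine eqv h2 hΘ _ _ (x ^ 2 ^ n) (by rw [map_pow, xN]) ?_ ?_ <;>
    · show Φ x ^ 2 ^ n = 1 * _
      rw [one_mul, map_pow]
  · rw [← map_mul, ← map_mul]
    refine eqv h2 hΘ _ _ 1 (map_one _) ?_ ?_
    · show Φ x * Φ x = Φ x * Φ x * _
      rw [map_one, mul_one]
    · show Φ (cj x) * Φ x = Φ x * Φ (cj x) * _
      rw [map_one, mul_one, m4, m4, mul_comm]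
  · rw [← map_mul, one]
    refine eqv h2 hΘ _ _ (-1) c1 ?_ ?_
    · show σ * Φ k * (σ * Φ k) = 1 * _
      rw [m2, kk, one_mul]
    · show σ * Φ (cj k * j) * (σ * Φ (cj k * j)) = 1 * _
      rw [m2, one_mul, map_mul cj, cj_cj, cjj, mul_mul_mul_comm, mul_comm k, kk, neg_mul j, jj]
      simp
  · rw [← map_mul, one]
    refine eqv h2 hΘ _ _ (-1) c1 ?_ ?_
    · show Φ j * Φ j = 1 * _
      rw [m4, jj, one_mul]
    · show σ * Φ (cj k) * (σ * Φ (cj k)) = 1 * _
      rw [m2, one_mul, cj_cj, mul_comm, kk]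
  · rw [← map_mul, ← map_mul]
    refine eqv h2 hΘ _ _ (-1) c1 ?_ ?_
    · show σ * Φ k * Φ j = Φ j * (σ * Φ k) * _
      rw [m1, m3, m3, cjj, mul_comm k]; simp
    · show σ * Φ (cj k * j) * (σ * Φ (cj k)) = σ * Φ (cj k) * (σ * Φ (cj k * j)) * _
      rw [m2, m2, m4, map_mul cj, cj_cj, cjj, mul_comm (cj k) j]; simp [mul_assoc]
  · rw [mul_inv_eq_iff_eq_mul, eq_inv_mul_iff_mul_eq, ← map_mul, ← map_mul]
    refine eqv h2 hΘ _ _ (cj x * x) (by rw [map_mul, cj_cj, mul_comm]) ?_ ?_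
    · show Φ x * (σ * Φ k * Φ x) = σ * Φ k * _
      rw [m3, m1, m3, mul_left_comm]
    · show Φ (cj x) * (σ * Φ (cj k * j) * Φ (cj x)) = σ * Φ (cj k * j) * _
      rw [m3, m1, m3, cj_cj, mul_left_comm, mul_comm x]
  · rw [mul_inv_eq_iff_eq_mul, eq_inv_mul_iff_mul_eq, ← map_mul, ← map_mul]
    refine eqv h2 hΘ _ _ (cj x * x) (by rw [map_mul, cj_cj, mul_comm]) ?_ ?_
    · show Φ x * (σ * Φ k * Φ x) = σ * Φ k * _
      rw [m3, m1, m3, mul_left_comm]
    · show Φ x * (σ * Φ (cj k * j) * Φ x) = σ * Φ (cj k * j) * _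
      rw [m3, m1, m3, mul_left_comm]
  · rw [mul_inv_eq_iff_eq_mul, ← map_mul, ← map_mul]
    refine eqv h2 hΘ _ _ 1 (map_one _) ?_ ?_
    · show Φ j * Φ x = Φ x * Φ j * _
      rw [map_one, mul_one, m4, m4, mul_comm]
    · show σ * Φ (cj k) * Φ (cj x) = Φ x * (σ * Φ (cj k)) * _
      rw [map_one, mul_one, m3, m1, mul_comm]
  · intro i l w hw e
    rw [← map_zpow, ← map_zpow, ← map_mul] at e
    have f1 : (A ^ i * B ^ l).1.1 = Φ (x ^ i * x ^ l) := by
      rw [map_mul, map_zpow, map_zpow]; rfl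
    have f2 : (A ^ i * B ^ l).1.2 = Φ (cj x ^ i * x ^ l) := by
      rw [map_mul, map_zpow, map_zpow]; rfl
    rcases hw with rfl | rfl | rfl | rfl
    · obtain ⟨r, hr, e1, e2⟩ := inv hΘ (e.trans one)
      rw [f1] at e1
      rw [f2] at e2
      have g1 : x ^ i * x ^ l = r := Φ_inj (e1.trans (one_mul _))
      have g2 : cj x ^ i * x ^ l = r := Φ_inj (e2.trans (one_mul _))
      have g3 : x ^ i = cj x ^ i := mul_right_cancel (g1.trans g2.symm)
      refine ⟨(zp i).1 g3, (zp l).1 ?_⟩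
      have g4 : cj x ^ i * cj x ^ l = r := by rw [← hr, ← g1, map_mul, map_zpow, map_zpow]
      exact mul_left_cancel (g2.trans g4.symm)
    · obtain ⟨r, -, e1, -⟩ := inv hΘ e
      exact absurd (f1.symm.trans (e1.trans (m3 _ _))) (nk h2 _ _)
    · obtain ⟨r, -, -, e2⟩ := inv hΘ e
      exact absurd (f2.symm.trans (e2.trans (m3 _ _))) (nk h2 _ _)
    · obtain ⟨r, -, e1, -⟩ := inv hΘ (e.trans (map_mul Θ U V).symm)
      rw [f1, uv1, m3] at e1
      exact absurd e1 (nk h2 _ _)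
  · intro e
    obtain ⟨r, -, e1, -⟩ := inv hΘ (e.trans one)
    exact nk h2 r k (e1.trans (one_mul _)).symm
  · intro e
    obtain ⟨r, -, -, e2⟩ := inv hΘ (e.trans one)
    exact nk h2 r (cj k) (e2.trans (one_mul _)).symm
  · intro e
    obtain ⟨r, -, e1, -⟩ := inv hΘ ((map_mul Θ U V).trans (e.trans one))
    rw [uv1] at e1
    exact nk h2 r (k * j) (e1.trans (one_mul _)).symm

end Cfsg.Agent.GT
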