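import Cfsg.Agent.GT.A
import Cfsg.Agent.S1059

/-! Transfer of the generators and relations to a Sylow 2-subgroup; the 2-part of `|G₂(q)|`. -/

set_option autoImplicit false

namespace Cfsg.Agent.GT

namespace SY

theorem rl_iff {A B : Type*} [Group A] [Group B] (f : A →* B) (hf : Function.Injective f)
    {n : ℕ} {a b u v : A} : Rl n (f a) (f b) (f u) (f v) ↔ Rl n a b u v := by
  have o : ∀ x : A, f x = 1 ↔ x = 1 := fun x => by
    rw [← map_one f]; exact hf.eq_iff
  constructor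
  · intro h
    refine ⟨h.hn, ?_, ?_, ?_, ?_, ?_, ?_, ?_, ?_, ?_, ?_, ?_, ?_, ?_⟩
    · apply hf; simpa using h.ha
    · apply hf; simpa using h.hb
    · apply hf; simpa using h.ab
    · apply hf; rw [map_mul, map_one]; exact h.uu
    · apply hf; rw [map_mul, map_one]; exact h.vv
    · apply hf; simpa using h.uv
    · apply hf; rw [map_mul, map_mul, map_inv, map_inv]; exact h.ua
    · apply hf; rw [map_mul, map_mul, map_inv, map_inv]; exact h.ub
    · apply hf; rw [map_mul, map_mul, map_inv]; exact h.va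
    · intro i j w hw e
      refine h.ind i j (f w) ?_ (by rw [← e, map_mul, map_zpow, map_zpow])
      rcases hw with rfl | rfl | rfl | rfl <;> simp
    · intro e; exact h.u1 ((o _).2 e)
    · intro e; exact h.v1 ((o _).2 e)
    · intro e; exact h.uv1 (by rw [← map_mul]; exact (o _).2 e)
  · intro h
    refine ⟨h.hn, ?_, ?_, ?_, ?_, ?_, ?_, ?_, ?_, ?_, ?_, ?_, ?_, ?_⟩
    · rw [← map_pow, h.ha, map_one]
    · rw [← map_pow, h.hb, map_one]
    · rw [← map_mul, h.ab, map_mul]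
    · rw [← map_mul, h.uu, map_one]
    · rw [← map_mul, h.vv, map_one]
    · rw [← map_mul, h.uv, map_mul]
    · rw [← map_inv, ← map_mul, ← map_mul, h.ua, map_inv]
    · rw [← map_inv, ← map_mul, ← map_mul, h.ub, map_inv]
    · rw [← map_inv, ← map_mul, ← map_mul, h.va]
    · intro i j w hw e
      have e' : f (a ^ i * b ^ j) = w := by rw [map_mul, map_zpow, map_zpow]; exact e
      rcases hw with rfl | rfl | rfl | rfl
      · exact h.ind i j 1 (Or.inl rfl) ((o _).1 e')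
      · exact h.ind i j u (Or.inr (Or.inl rfl)) (hf e')
      · exact h.ind i j v (Or.inr (Or.inr (Or.inl rfl))) (hf e')
      · exact h.ind i j (u * v) (Or.inr (Or.inr (Or.inr rfl))) (hf (by rw [e', map_mul]))
    · intro e; exact h.u1 ((o _).1 e)
    · intro e; exact h.v1 ((o _).1 e)
    · intro e; exact h.uv1 ((o _).1 (by rw [map_mul]; exact e))

variable {H : Type*} [Group H] {n : ℕ} {a b u v : H}

/-- the Klein four-set -/
def Kl (u v w : H) : Prop := w = 1 ∨ w = u ∨ w = v ∨ w = u * v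

theorem kl_mul (h : Rl n a b u v) {w w' : H} (hw : Kl u v w) (hw' : Kl u v w') :
    Kl u v (w * w') := by
  have e1 : u * (u * v) = v := by rw [← mul_assoc, h.uu, one_mul]
  have e2 : v * (u * v) = u := by rw [← mul_assoc, ← h.uv, mul_assoc, h.vv, mul_one]
  have e3 : u * v * u = v := by rw [h.uv, mul_assoc, h.uu, mul_one]
  have e4 : u * v * v = u := by rw [mul_assoc, h.vv, mul_one]
  have e5 : u * v * (u * v) = 1 := by rw [← mul_assoc, e3, h.vv]
  unfold Kl at *
  rcases hw with e | e | e | e <;> rcases hw' with e' | e' | e' | e' <;> rw [e, e'] <;>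
    simp only [one_mul, mul_one, e1, e2, e3, e4, e5, h.uu, h.vv, ← h.uv, true_or, or_true]

theorem kl_sq (h : Rl n a b u v) {w : H} (hw : Kl u v w) : w * w = 1 := by
  have e3 : u * v * u = v := by rw [h.uv, mul_assoc, h.uu, mul_one]
  rcases hw with e | e | e | e <;> rw [e]
  · simp
  · exact h.uu
  · exact h.vv
  · rw [← mul_assoc, e3, h.vv]

theorem kl_inv (h : Rl n a b u v) {w : H} (hw : Kl u v w) : w⁻¹ = w :=
  inv_eq_of_mul_eq_one_right (kl_sq h hw)

theorem cm (h : Rl n a b u v) (i j : ℤ) : b ^ j * a ^ i = a ^ i * b ^ j :=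
  (((show Commute a b from h.ab).zpow_zpow i j).eq).symm

theorem mulab (h : Rl n a b u v) (i j k l : ℤ) :
    a ^ i * b ^ j * (a ^ k * b ^ l) = a ^ (i + k) * b ^ (j + l) := by
  rw [zpow_add, zpow_add, mul_assoc, ← mul_assoc (b ^ j), cm h]
  simp only [mul_assoc]

theorem cj (h : Rl n a b u v) {w : H} (hw : Kl u v w) (i j : ℤ) :
    ∃ k l : ℤ, w * (a ^ i * b ^ j) * w⁻¹ = a ^ k * b ^ l := by
  have vb : v * b * v⁻¹ = a := by
    rw [← h.va]
    calc v * (v * a * v⁻¹) * v⁻¹ = (v * v) * a * (v * v)⁻¹ := by group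
      _ = a := by rw [h.vv]; simp
  have sp : ∀ (x : H) (i j : ℤ), x * (a ^ i * b ^ j) * x⁻¹ =
      (x * a * x⁻¹) ^ i * (x * b * x⁻¹) ^ j := fun x i j => by
    rw [conj_zpow, conj_zpow]; group
  have hu : ∀ i j : ℤ, u * (a ^ i * b ^ j) * u⁻¹ = a ^ (-i) * b ^ (-j) := fun i j => by
    rw [sp, h.ua, h.ub, inv_zpow', inv_zpow']
  have hv : ∀ i j : ℤ, v * (a ^ i * b ^ j) * v⁻¹ = a ^ j * b ^ i := fun i j => by
    rw [sp, h.va, vb, cm h]
  rcases hw with e | e | e | e <;> rw [e]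
  · exact ⟨i, j, by simp⟩
  · exact ⟨_, _, hu i j⟩
  · exact ⟨_, _, hv i j⟩
  · refine ⟨-j, -i, ?_⟩
    rw [← hu j i, ← hv i j]; group

/-- the subgroup generated by `a b u v` -/
def RR (h : Rl n a b u v) : Subgroup H where
  carrier := {g | ∃ (i j : ℤ) (w : H), Kl u v w ∧ g = a ^ i * b ^ j * w}
  one_mem' := ⟨0, 0, 1, Or.inl rfl, by simp⟩
  mul_mem' := by
    rintro _ _ ⟨i, j, w, hw, rfl⟩ ⟨k, l, w', hw', rfl⟩
    obtain ⟨k', l', e⟩ := cj h hw k l
    refine ⟨i + k', j + l', w * w', kl_mul h hw hw', ?_⟩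
    rw [← mulab h, ← e]; group
  inv_mem' := by
    rintro _ ⟨i, j, w, hw, rfl⟩
    obtain ⟨k', l', e⟩ := cj h hw (-i) (-j)
    refine ⟨k', l', w, hw, ?_⟩
    rw [← e, mul_inv_rev, kl_inv h hw, mul_assoc, kl_sq h hw, mul_one, mul_inv_rev,
      ← zpow_neg, ← zpow_neg, cm h]

theorem card_RR (h : Rl n a b u v) : Nat.card (RR h) = 2 ^ (2 * n + 2) := by
  have hN : 0 < 2 ^ n := by positivity
  let W : Fin 4 → H := ![1, u, v, u * v]
  have hW : ∀ s, Kl u v (W s) := fun s => by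
    fin_cases s <;> simp [W, Kl]
  have uv' : u ≠ v := fun e => h.uv1 (by rw [e, h.vv])
  have Wi : Function.Injective W := by
    have e1 : u ≠ u * v := fun e => h.v1 (by simpa using e.symm)
    have e2 : v ≠ u * v := fun e => h.u1 (by simpa using e.symm)
    intro s t e
    fin_cases s <;> fin_cases t <;>
      first | rfl | exact absurd e h.u1 | exact absurd e h.v1 | exact absurd e h.uv1 |
        exact absurd e.symm h.u1 | exact absurd e.symm h.v1 | exact absurd e.symm h.uv1 |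
        exact absurd e uv' | exact absurd e.symm uv' | exact absurd e e1 | exact absurd e.symm e1 |
        exact absurd e e2 | exact absurd e.symm e2
  let f : Fin (2 ^ n) × Fin (2 ^ n) × Fin 4 → RR h := fun p =>
    ⟨a ^ ((p.1 : ℕ) : ℤ) * b ^ ((p.2.1 : ℕ) : ℤ) * W p.2.2, _, _, _, hW _, rfl⟩
  have fin_eq : ∀ i k : Fin (2 ^ n), (2 ^ n : ℤ) ∣ -((k : ℕ) : ℤ) + ((i : ℕ) : ℤ) → i = k := by
    intro i k d
    have hi := i.2
    have hk := k.2
    have hi' : ((i : ℕ) : ℤ) < 2 ^ n := by exact_mod_cast hi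
    have hk' : ((k : ℕ) : ℤ) < 2 ^ n := by exact_mod_cast hk
    have := Int.eq_zero_of_abs_lt_dvd d (by
      rw [abs_lt]; constructor <;> omega)
    apply Fin.ext; omega
  have hf : Function.Bijective f := by
    constructor
    · rintro ⟨i, j, s⟩ ⟨k, l, t⟩ e
      have e0 : a ^ ((i : ℕ) : ℤ) * b ^ ((j : ℕ) : ℤ) * W s =
          a ^ ((k : ℕ) : ℤ) * b ^ ((l : ℕ) : ℤ) * W t := congrArg Subtype.val e
      have e1 : a ^ (-((k : ℕ) : ℤ) + ((i : ℕ) : ℤ)) * b ^ (-((l : ℕ) : ℤ) + ((j : ℕ) : ℤ)) =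
          W t * W s := by
        rw [← mulab h]
        have : a ^ ((i : ℕ) : ℤ) * b ^ ((j : ℕ) : ℤ) =
            a ^ ((k : ℕ) : ℤ) * b ^ ((l : ℕ) : ℤ) * W t * W s := by
          rw [← e0, mul_assoc _ (W s), kl_sq h (hW s), mul_one]
        rw [this, ← mul_assoc, ← mul_assoc, mulab h]; simp
      obtain ⟨d1, d2⟩ := h.ind _ _ _ (kl_mul h (hW t) (hW s)) e1
      obtain rfl := fin_eq _ _ d1
      obtain rfl := fin_eq _ _ d2
      obtain rfl := Wi (mul_left_cancel e0)
      rfl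
    · rintro ⟨_, i, j, w, hw, rfl⟩
      have hN' : (0 : ℤ) < 2 ^ n := by positivity
      have red : ∀ (x : H) (i : ℤ), x ^ 2 ^ n = 1 →
          ∃ k : Fin (2 ^ n), x ^ ((k : ℕ) : ℤ) = x ^ i := by
        intro x i hx
        have h0 := Int.emod_nonneg i hN'.ne'
        have h1 := Int.emod_lt_of_pos i hN'
        refine ⟨⟨(i % 2 ^ n).toNat, ?_⟩, ?_⟩
        · have : (((i % 2 ^ n).toNat : ℕ) : ℤ) < ((2 ^ n : ℕ) : ℤ) := by
            rw [Int.toNat_of_nonneg h0]; exact_mod_cast h1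
          exact_mod_cast this
        · show x ^ (((i % 2 ^ n).toNat : ℕ) : ℤ) = x ^ i
          rw [Int.toNat_of_nonneg h0]
          have hx' : x ^ ((2 : ℤ) ^ n) = 1 := by
            have : ((2 : ℤ) ^ n) = ((2 ^ n : ℕ) : ℤ) := by push_cast; rfl
            rw [this, zpow_natCast, hx]
          conv_rhs => rw [← Int.emod_add_mul_ediv i (2 ^ n), zpow_add, zpow_mul, hx', one_zpow,
            mul_one]
      obtain ⟨k, ek⟩ := red a i h.ha
      obtain ⟨l, el⟩ := red b j h.hb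
      have : ∃ s, W s = w := by
        rcases hw with e | e | e | e
        · exact ⟨0, e.symm⟩
        · exact ⟨1, e.symm⟩
        · exact ⟨2, e.symm⟩
        · exact ⟨3, e.symm⟩
      obtain ⟨s, es⟩ := this
      exact ⟨(k, l, s), Subtype.ext (by simp only [f]; rw [ek, el, es])⟩
  rw [← Nat.card_eq_of_bijective f hf]
  simp only [Nat.card_eq_fintype_card, Fintype.card_prod, Fintype.card_fin]
  ring

end SY

open SY in
theorem sy {G H : Type*} [Group G] [Group H] [Finite G] [Finite H] (S : Sylow 2 G)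
    (P : Sylow 2 H) (e : (S : Subgroup G) ≃* (P : Subgroup H)) {n : ℕ} {a b u v : H}
    (h : Rl n a b u v) (hc : (Nat.card H).factorization 2 = 2 * n + 2) :
    ∃ a' b' u' v' : G, Rl n a' b' u' v' ∧ Gn (S : Subgroup G) a' b' u' v' ∧
      Nat.card (S : Subgroup G) = 2 ^ (2 * n + 2) := by
  have : Fact (Nat.Prime 2) := ⟨Nat.prime_two⟩
  let R : Sylow 2 H := Sylow.ofCard (RR h) (by rw [hc]; exact card_RR h)
  let E : RR h ≃* (S : Subgroup G) := (Sylow.equiv R P).trans e.symm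
  let φ : RR h →* G := (S : Subgroup G).subtype.comp E.toMonoidHom
  have φi : Function.Injective φ := Subtype.val_injective.comp E.injective
  let A : RR h := ⟨a, 1, 0, 1, Or.inl rfl, by simp⟩
  let B : RR h := ⟨b, 0, 1, 1, Or.inl rfl, by simp⟩
  let U : RR h := ⟨u, 0, 0, u, Or.inr (Or.inl rfl), by simp⟩
  let V : RR h := ⟨v, 0, 0, v, Or.inr (Or.inr (Or.inl rfl)), by simp⟩
  have h1 : Rl n A B U V := (rl_iff (RR h).subtype Subtype.val_injective).1 h
  refine ⟨φ A, φ B, φ U, φ V, (rl_iff φ φi).2 h1, ?_, ?_⟩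
  · intro g
    constructor
    · intro hg
      obtain ⟨r, hr⟩ := E.surjective ⟨g, hg⟩
      have hr' : φ r = g := congrArg Subtype.val hr
      obtain ⟨i, j, w, hw, er⟩ := r.2
      have : ∃ w' : RR h, (w' = 1 ∨ w' = U ∨ w' = V ∨ w' = U * V) ∧ (w' : H) = w := by
        rcases hw with e | e | e | e
        · exact ⟨1, Or.inl rfl, e.symm⟩
        · exact ⟨U, Or.inr (Or.inl rfl), e.symm⟩
        · exact ⟨V, Or.inr (Or.inr (Or.inl rfl)), e.symm⟩
        · exact ⟨U * V, Or.inr (Or.inr (Or.inr rfl)), e.symm⟩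
      obtain ⟨w', hw', ew⟩ := this
      have e2 : r = A ^ i * B ^ j * w' := by
        apply Subtype.ext
        rw [er, ← ew]; simp [A, B]
      refine ⟨i, j, φ w', ?_, by rw [← hr', e2, map_mul, map_mul, map_zpow, map_zpow]⟩
      rcases hw' with rfl | rfl | rfl | rfl <;> simp
    · rintro ⟨i, j, w, hw, rfl⟩
      have m : ∀ r, φ r ∈ (S : Subgroup G) := fun r => (E r).2
      refine mul_mem (mul_mem (zpow_mem (m _) _) (zpow_mem (m _) _)) ?_
      rcases hw with rfl | rfl | rfl | rfl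
      · exact one_mem _
      · exact m _
      · exact m _
      · exact mul_mem (m _) (m _)
  · rw [← card_RR h]
    exact (Nat.card_congr E.toEquiv).symm

theorem cardG2 {F : Type*} [Field F] [Fintype F] (hF : Odd (Fintype.card F)) :
    (Nat.card ↥(Cfsg.Lie.chevG2.group F)).factorization 2 =
      2 * (Fintype.card F ^ 2 - 1).factorization 2 := by
  rw [Cfsg.Agent.S1059.result rfl]
  have h1 : 1 < Fintype.card F := Fintype.one_lt_card
  generalize Fintype.card F = q at *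
  have h2 : 1 < q ^ 2 := Nat.one_lt_pow (by norm_num) h1
  have e : q ^ 6 - 1 = (q ^ 2 - 1) * (q ^ 4 + q ^ 2 + 1) := by
    obtain ⟨c, hc⟩ : ∃ c, q ^ 2 = c + 1 := ⟨q ^ 2 - 1, by omega⟩
    have e6 : q ^ 6 = (c + 1) ^ 3 := by rw [← hc]; ring
    have e4 : q ^ 4 = (c + 1) ^ 2 := by rw [← hc]; ring
    rw [e6, e4, hc, Nat.add_sub_cancel]
    apply Nat.sub_eq_of_eq_add; ring
  have o1 : ¬ 2 ∣ q ^ 6 := (hF.pow (n := 6)).not_two_dvd_nat
  have o2 : ¬ 2 ∣ q ^ 4 + q ^ 2 + 1 :=
    (((hF.pow (n := 4)).add_odd (hF.pow (n := 2))).add_one).not_two_dvd_nat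
  have n1 : q ^ 6 ≠ 0 := by positivity
  have n2 : q ^ 2 - 1 ≠ 0 := by omega
  have n3 : q ^ 4 + q ^ 2 + 1 ≠ 0 := by omega
  rw [e, Nat.factorization_mul (mul_ne_zero n1 n2) (mul_ne_zero n2 n3),
    Nat.factorization_mul n1 n2, Nat.factorization_mul n2 n3]
  simp only [Finsupp.add_apply, Nat.factorization_eq_zero_of_not_dvd o1,
    Nat.factorization_eq_zero_of_not_dvd o2]
  ring

end Cfsg.Agent.GT
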