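import Cfsg.Agent.GT.TH1
import Cfsg.Agent.H14.SS7

/-! The subgroup `(SL₂ ∘ SL₂).2` of `G₂(q)`. -/

set_option autoImplicit false

namespace Cfsg.Agent.GT

open Matrix Cfsg.Agent.H14

namespace TH

variable {ι Φ : Type} [Fintype ι] [DecidableEq ι] {R : RS ι Φ} {K : Type*} [Field K] {G : Type*} [Group G]

theorem sl2 (X : RG R K G) (hm : X.HMul) {r s : Φ} (hr : R.pos r) (h : R.pair r s = 1) :
    ∃ φ : SpecialLinearGroup (Fin 2) K →* G, Function.Injective φ ∧ φ.range ≤ X.gen {r, R.neg r} ∧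
      (∀ t, φ (H12.upper t) = X.x r t) ∧ (∀ t, φ (H12.lower t) = X.x (R.neg r) t) ∧
      ∀ (c : K) (hc : c ≠ 0), φ (H12.mkSL2 c⁻¹ 0 0 c (by simp [hc])) = X.h r c⁻¹ := by
  obtain ⟨φ, hφ⟩ := X.exists_SL2 hm r
  have h1 : ∀ t, φ (H12.upper t) = X.x r t := fun t => by simp [hφ, RG.cell]
  have h2 : ∀ t, φ (H12.lower t) = X.x (R.neg r) t := fun t => by
    by_cases ht : t = 0
    · simp [ht]
    · simp [hφ, RG.cell, ht, X.x_neg_eq r ht]
  obtain ⟨ψ, a1, a2, a3, a4⟩ : ∃ ψ : SpecialLinearGroup (Fin 2) K →* G, Function.Injective ψ ∧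
      ψ.range ≤ X.gen {r, R.neg r} ∧ (∀ t, ψ (H12.upper t) = X.x r t) ∧ (∀ t, ψ (H12.lower t) = X.x (R.neg r) t) := by
    refine ⟨φ, (injective_iff_map_eq_one _).2 fun g hg => ?_, ?_, h1, h2⟩
    · have h1 := g.det_coe
      rw [det_fin_two] at h1
      rw [hφ, RG.cell] at hg
      split_ifs at hg with h2
      · rw [h2, mul_zero, sub_zero] at h1
        have h3 := left_ne_zero_of_mul_eq_one h1
        have h4 := X.eq_one_of_mem_U_H (X.x_mem_U hr _) (eq_inv_of_mul_eq_one_left hg ▸ inv_mem (X.h_mem_H r h3))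
        have h5 := X.h_conj r s h3 1
        rw [h4, one_mul] at hg
        rw [hg, h, zpow_one, one_mul, inv_one, mul_one, mul_one, (X.x_injective s).eq_iff] at h5
        rw [X.x_eq_one_iff, ← h5, one_mul] at h4
        rw [← h5, one_mul] at h1
        ext i j
        fin_cases i <;> fin_cases j <;> simp [h1, h2, h4, ← h5]
      · have h3 : -(g 1 0)⁻¹ ≠ 0 := by simpa using h2
        have := (X.mem_B_iff_rep (X.n_mem_N r h3) (X.rep_n r h3)).1 ((mul_mem_cancel_left (X.x_mem_B hr _)).1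
          ((mul_mem_cancel_right (X.x_mem_B hr _)).1 (hg ▸ one_mem _)))
        exact absurd (by simpa using DFunLike.congr_fun this r) (R.neg_ne r)
    · rintro _ ⟨g, rfl⟩
      rw [hφ, RG.cell]
      have h1 := fun t => X.x_mem_gen (S := {r, R.neg r}) (r := r) (by simp) t
      have h2 := fun t => X.n_mem_gen (S := {r, R.neg r}) (r := r) (by simp) (by simp) t
      split_ifs
      exacts [mul_mem (h1 _) (mul_mem (h2 _) (h2 _)), mul_mem (mul_mem (h1 _) (h2 _)) (h1 _)]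
  have e : ψ = φ := by
    have : ψ.eqLocus φ = ⊤ := H12.SL2_eq_top_of_upper_lower (fun t => (a3 t).trans (h1 t).symm)
      (fun t => (a4 t).trans (h2 t).symm)
    exact MonoidHom.ext fun x => this.ge (Subgroup.mem_top x)
  subst e
  exact ⟨ψ, a1, a2, a3, a4, fun c hc => by simp [hφ, RG.cell]⟩

theorem actT (X : RG R K G) (hm : X.HMul) {r : Φ} (φ : SpecialLinearGroup (Fin 2) K →* G)
    (h1 : ∀ t, φ (H12.upper t) = X.x r t) (h2 : ∀ t, φ (H12.lower t) = X.x (R.neg r) t) (c : ι → Kˣ) (l : Kˣ)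
    (h : R.chi c r = l) (x : SpecialLinearGroup (Fin 2) K) :
    X.torX hm c * φ x = φ (kk l x) * X.torX hm c :=
  act φ _ l (fun t => by rw [h1, h1, X.torX_conj', h])
    (fun t => by rw [h2, h2, X.torX_conj', R.chi_neg, h, Units.val_inv_eq_inv_val]) x

end TH

theorem th {F : Type*} [Field F] [Fintype F] (_hF : Odd (Fintype.card F)) :
    ∃ Θ : MM F →* ↥(Cfsg.Lie.chevG2.group F), Kr Θ := by
  have p := H14.bridgeG2.pr_eq H14.goodG2
  have b0 : H14.goodG2.R.simple (0 : Fin 2) = (7 : Fin 12) := Fin.ext (H14.goodG2.simple_eq _)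
  have b1 : ∀ r : Fin 12, ∀ i : Fin 2, H14.goodG2.R.cov r i = H14.tabG2.cov r i := fun r i =>
    (H14.goodG2.cov_eq r i).trans (H14.bridgeG2.cov_eq r r.2 i i.2)
  obtain ⟨φ, c1, c2, c3, c4, c5⟩ := TH.sl2 (H14.goodG2.rgD F) (H14.goodG2.rgD_hmul F) (r := (11 : Fin 12)) (s := (6 : Fin 12))
    (fun i => (H14.goodG2.R.cov_nonneg_iff _ i).1 (b1 _ i ▸ (by decide +kernel : ∀ i : Fin 2, 0 ≤ H14.tabG2.cov 11 i) i))
    (p _ _ ▸ by decide +kernel)
  obtain ⟨ψ, d1, d2, d3, d4, d5⟩ := TH.sl2 (H14.goodG2.rgD F) (H14.goodG2.rgD_hmul F) (r := (7 : Fin 12)) (s := (9 : Fin 12))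
    (b0 ▸ H14.goodG2.R.pos_simple _) (p _ _ ▸ by decide +kernel)
  have cm : ∀ x y, φ x * ψ y = ψ y * φ x := fun x y =>
    (H14.goodG2.rgD F).commute_of_long (p _ _ ▸ by decide +kernel) (fun k => p _ k ▸ Fin.ext ∘
        (by decide +kernel : ∀ k : Fin 12, 2 ≤ H14.tabG2.pr 2 11 k → k.1 = 11) k) (c2 ⟨x, rfl⟩) (d2 ⟨y, rfl⟩)
  let δ : Fˣ →* (Fin Cfsg.Lie.chevG2.rank → Fˣ) :=
    MonoidHom.mk' (fun l i => l ^ ([1, 1] : List ℤ).getD i 0) fun a b => funext fun i => mul_zpow _ _ _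
  have ch : ∀ r : Fin 12, H14.tabG2.ev 2 [1, 1] r = 1 → ∀ l : Fˣ, H14.goodG2.R.chi (δ l) r = l := fun r hr l => by
    have := H14.goodG2.R.chi_zpow l (fun i => ([1, 1] : List ℤ).getD i 0) r
    exact this.trans ((congrArg (l ^ ·) ((H14.bridgeG2.ev_eq H14.goodG2 [1, 1] r).symm.trans hr)).trans (zpow_one l))
  refine TH.abs φ ψ c1 d1 cm (((H14.goodG2.rgD F).torX (H14.goodG2.rgD_hmul F)).comp δ)
    (fun l x => TH.actT _ _ φ c3 c4 _ l (ch _ (by decide +kernel) l) x)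
    (fun l x => TH.actT _ _ ψ d3 d4 _ l (ch _ (by decide +kernel) l) x) fun c hc => ?_
  have e := fun r => (H14.goodG2.rgD F).h_eq_torX (H14.goodG2.rgD_hmul F) r (Units.mk0 c hc)⁻¹
  simp only [Units.val_inv_eq_inv_val, Units.val_mk0] at e
  rw [(c5 c hc).trans (e _), (d5 c hc).trans (e _), MonoidHom.comp_apply, ← map_mul, ← map_mul]
  refine (congrArg _ (funext fun i => ?_)).trans (map_one _)
  show (Units.mk0 c hc)⁻¹ ^ H14.goodG2.R.cov (11 : Fin 12) i * (Units.mk0 c hc)⁻¹ ^ H14.goodG2.R.cov (7 : Fin 12) i *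
    (Units.mk0 c hc ^ 2) ^ ([1, 1] : List ℤ).getD i 0 = 1
  have k := (by decide +kernel : ∀ i : Fin 2, H14.tabG2.cov 11 i + H14.tabG2.cov 7 i = 2 * ([1, 1] : List ℤ).getD i 0) i
  have q : ∀ (z : Fˣ) (a b m : ℤ), a + b = 2 * m → z⁻¹ ^ a * z⁻¹ ^ b * (z ^ 2) ^ m = 1 := fun z a b m h => by
    rw [← _root_.zpow_add, h, ← zpow_natCast, ← _root_.zpow_mul, _root_.inv_zpow, Nat.cast_ofNat, inv_mul_cancel]
  exact q _ _ _ _ ((congrArg₂ (· + ·) (b1 11 i) (b1 7 i)).trans k)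

end Cfsg.Agent.GT
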