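import Cfsg.Agent.GT.A
import Cfsg.Agent.H12.Root2

/-! The map from pairs of matrices of equal determinant, abstractly. -/

set_option autoImplicit false

namespace Cfsg.Agent.GT.TH

open Matrix

variable {F : Type*} [Field F] {G : Type*} [Group G]

/-- conjugation by `diag(l, 1)` -/
def kk (l : Fˣ) : SpecialLinearGroup (Fin 2) F →* SpecialLinearGroup (Fin 2) F :=
  MonoidHom.mk' (fun x => H12.mkSL2 (x 0 0) (l * x 0 1) ((l : F)⁻¹ * x 1 0) (x 1 1) (by
      have := x.det_coe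
      rw [det_fin_two] at this
      have hl := l.ne_zero
      refine Eq.trans ?_ this
      field_simp))
    fun x y => by
      have hl := l.ne_zero
      ext i j
      fin_cases i <;> fin_cases j <;> simp [Matrix.mul_apply, Fin.sum_univ_two] <;> field_simp

theorem kk_coe (l : Fˣ) (x : SpecialLinearGroup (Fin 2) F) :
    (kk l x : Matrix (Fin 2) (Fin 2) F) = !![x 0 0, l * x 0 1; (l : F)⁻¹ * x 1 0, x 1 1] := rfl

theorem dt (g : GL (Fin 2) F) : ((GeneralLinearGroup.det g : Fˣ) : F) = g 0 0 * g 1 1 - g 0 1 * g 1 0 := by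
  rw [GeneralLinearGroup.val_det_apply, det_fin_two]

/-- the determinant one part -/
def ss (g : GL (Fin 2) F) : SpecialLinearGroup (Fin 2) F :=
  H12.mkSL2 (g 0 0 * ((GeneralLinearGroup.det g : Fˣ) : F)⁻¹) (g 0 1)
    (g 1 0 * ((GeneralLinearGroup.det g : Fˣ) : F)⁻¹) (g 1 1) (by
      have hl := (GeneralLinearGroup.det g).ne_zero
      have := dt g
      generalize ((GeneralLinearGroup.det g : Fˣ) : F) = l at hl this
      field_simp
      rw [this])

theorem ss_coe (g : GL (Fin 2) F) : (ss g : Matrix (Fin 2) (Fin 2) F) =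
    !![g 0 0 * ((GeneralLinearGroup.det g : Fˣ) : F)⁻¹, g 0 1;
      g 1 0 * ((GeneralLinearGroup.det g : Fˣ) : F)⁻¹, g 1 1] := rfl

theorem ss_mul (g h : GL (Fin 2) F) : ss (g * h) = ss g * kk (GeneralLinearGroup.det g) (ss h) := by
  have h1 := (GeneralLinearGroup.det g).ne_zero
  have h2 := (GeneralLinearGroup.det h).ne_zero
  apply Subtype.ext
  show (ss (g * h) : Matrix (Fin 2) (Fin 2) F) =
    (ss g : Matrix (Fin 2) (Fin 2) F) * (kk (GeneralLinearGroup.det g) (ss h) : Matrix (Fin 2) (Fin 2) F)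
  rw [kk_coe, ss_coe, ss_coe, ss_coe, map_mul]
  simp only [Units.val_mul]
  generalize ((GeneralLinearGroup.det g : Fˣ) : F) = l at h1
  generalize ((GeneralLinearGroup.det h : Fˣ) : F) = m at h2
  ext i j
  fin_cases i <;> fin_cases j <;> simp [Matrix.mul_apply, Fin.sum_univ_two] <;> field_simp

theorem act (φ : SpecialLinearGroup (Fin 2) F →* G) (w : G) (l : Fˣ)
    (h1 : ∀ t, w * φ (H12.upper t) * w⁻¹ = φ (H12.upper (l * t)))
    (h2 : ∀ t, w * φ (H12.lower t) * w⁻¹ = φ (H12.lower ((l : F)⁻¹ * t))) (x : SpecialLinearGroup (Fin 2) F) :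
    w * φ x = φ (kk l x) * w := by
  have : ((MulAut.conj w).toMonoidHom.comp φ).eqLocus (φ.comp (kk l)) = ⊤ :=
    H12.SL2_eq_top_of_upper_lower
      (fun t => (h1 t).trans (congrArg φ (by
        ext i j; fin_cases i <;> fin_cases j <;> simp [kk_coe])))
      (fun t => (h2 t).trans (congrArg φ (by
        ext i j; fin_cases i <;> fin_cases j <;> simp [kk_coe])))
  have h3 : w * φ x * w⁻¹ = φ (kk l x) := this.ge (Subgroup.mem_top x)
  rw [← h3, inv_mul_cancel_right]

theorem scal (g : GL (Fin 2) F)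
    (h : ∀ x, ss g * kk (GeneralLinearGroup.det g) x = x * ss g) :
    (g : Matrix (Fin 2) (Fin 2) F) = g 1 1 • 1 := by
  have hl := (GeneralLinearGroup.det g).ne_zero
  have k : ∀ x, (ss g : Matrix (Fin 2) (Fin 2) F) * (kk (GeneralLinearGroup.det g) x : Matrix (Fin 2) (Fin 2) F) =
      (x : Matrix (Fin 2) (Fin 2) F) * (ss g : Matrix (Fin 2) (Fin 2) F) := fun x => congrArg Subtype.val (h x)
  have a := k (H12.upper 1)
  have b := k (H12.lower 1)
  rw [kk_coe, ss_coe] at a b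
  generalize ((GeneralLinearGroup.det g : Fˣ) : F) = l at hl a b
  have a1 := congrFun (congrFun a 0) 0
  have a2 := congrFun (congrFun a 0) 1
  have b1 := congrFun (congrFun b 0) 0
  simp [Matrix.mul_apply, Fin.sum_univ_two, hl] at a1 a2 b1
  ext i j
  fin_cases i <;> fin_cases j <;> simp
  · linear_combination a2
  · exact b1
  · exact a1

theorem ss_scal (g : GL (Fin 2) F) {c : F} (h : (g : Matrix (Fin 2) (Fin 2) F) = c • 1) :
    ∃ hc : c ≠ 0, GeneralLinearGroup.det g = Units.mk0 c hc ^ 2 ∧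
      ss g = H12.mkSL2 c⁻¹ 0 0 c (by simp [hc]) := by
  have e : ∀ i j, g i j = (c • (1 : Matrix (Fin 2) (Fin 2) F)) i j := fun i j => congrFun (congrFun h i) j
  have hd : ((GeneralLinearGroup.det g : Fˣ) : F) = c ^ 2 := by
    rw [dt]; simp [e, sq]
  have hc : c ≠ 0 := fun k => (GeneralLinearGroup.det g).ne_zero (by rw [hd, k]; simp)
  refine ⟨hc, Units.ext (by simpa using hd), Subtype.ext ?_⟩
  rw [ss_coe, hd]
  ext i j
  fin_cases i <;> fin_cases j <;> simp [e]
  field_simp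

theorem abs (φ ψ : SpecialLinearGroup (Fin 2) F →* G) (i1 : Function.Injective φ) (i2 : Function.Injective ψ)
    (cm : ∀ x y, φ x * ψ y = ψ y * φ x) (w : Fˣ →* G)
    (a1 : ∀ l x, w l * φ x = φ (kk l x) * w l) (a2 : ∀ l x, w l * ψ x = ψ (kk l x) * w l)
    (hD : ∀ (c : F) (hc : c ≠ 0), φ (H12.mkSL2 c⁻¹ 0 0 c (by simp [hc])) * ψ (H12.mkSL2 c⁻¹ 0 0 c (by simp [hc])) *
      w (Units.mk0 c hc ^ 2) = 1) : ∃ Θ : MM F →* G, Kr Θ := by
  have de : ∀ p : MM F, GeneralLinearGroup.det p.1.2 = GeneralLinearGroup.det p.1.1 := fun p => p.2.symm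
  refine ⟨MonoidHom.mk' (fun p => φ (ss p.1.1) * ψ (ss p.1.2) * w (GeneralLinearGroup.det p.1.1)) fun p q => ?_,
    fun p => ⟨fun h => ?_, ?_⟩⟩
  · simp only [Subgroup.coe_mul, Prod.fst_mul, Prod.snd_mul, ss_mul, map_mul, de]
    generalize GeneralLinearGroup.det p.1.1 = l
    calc φ (ss p.1.1) * φ (kk l (ss q.1.1)) * (ψ (ss p.1.2) * ψ (kk l (ss q.1.2))) * (w l * w (GeneralLinearGroup.det q.1.1))
        = φ (ss p.1.1) * (φ (kk l (ss q.1.1)) * ψ (ss p.1.2)) * (ψ (kk l (ss q.1.2)) * w l) *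
          w (GeneralLinearGroup.det q.1.1) := by group
      _ = φ (ss p.1.1) * ψ (ss p.1.2) * (φ (kk l (ss q.1.1)) * w l) * ψ (ss q.1.2) *
          w (GeneralLinearGroup.det q.1.1) := by rw [cm, ← a2]; group
      _ = _ := by rw [← a1]; group
  · replace h : φ (ss p.1.1) * ψ (ss p.1.2) * w (GeneralLinearGroup.det p.1.1) = 1 := h
    have s1 := scal p.1.1 fun x => i1 (by
      have : φ (ss p.1.1) * ψ (ss p.1.2) * w (GeneralLinearGroup.det p.1.1) * φ x =
          φ x * (φ (ss p.1.1) * ψ (ss p.1.2) * w (GeneralLinearGroup.det p.1.1)) := by rw [h, one_mul, mul_one]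
      rw [mul_assoc, a1, mul_assoc, ← mul_assoc (ψ _), ← cm] at this
      rw [map_mul, map_mul]
      refine mul_right_cancel (b := ψ (ss p.1.2) * w (GeneralLinearGroup.det p.1.1)) ?_
      simpa only [mul_assoc] using this)
    have s2 := scal p.1.2 fun x => i2 (by
      have : φ (ss p.1.1) * ψ (ss p.1.2) * w (GeneralLinearGroup.det p.1.1) * ψ x =
          ψ x * (φ (ss p.1.1) * ψ (ss p.1.2) * w (GeneralLinearGroup.det p.1.1)) := by rw [h, one_mul, mul_one]
      rw [mul_assoc, a2, ← mul_assoc (ψ x), ← mul_assoc (ψ x), ← cm] at this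
      rw [map_mul, map_mul, de]
      refine mul_left_cancel (a := φ (ss p.1.1)) (mul_right_cancel (b := w (GeneralLinearGroup.det p.1.1)) ?_)
      simpa only [mul_assoc] using this)
    refine ⟨_, s1, ?_⟩
    generalize p.1.1 1 1 = c at s1
    generalize p.1.2 1 1 = c' at s2
    obtain ⟨hc, d1, e1⟩ := ss_scal _ s1
    obtain ⟨hc', d2, e2⟩ := ss_scal _ s2
    have := hD c hc
    rw [← d1, ← h, mul_left_inj, e1, mul_right_inj, e2] at this
    have := congrArg (fun g : SpecialLinearGroup (Fin 2) F => g 1 1) (i2 this)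
    simp at this
    rw [s2, this]
  · rintro ⟨c, s1, s2⟩
    obtain ⟨hc, d1, e1⟩ := ss_scal _ s1
    obtain ⟨hc', d2, e2⟩ := ss_scal _ s2
    show φ (ss p.1.1) * ψ (ss p.1.2) * w (GeneralLinearGroup.det p.1.1) = 1
    rw [e1, e2, d1]
    exact hD c hc

end Cfsg.Agent.GT.TH
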